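import Mathlib
import Cfsg.Agent.Lib.TwoGrp.Har2

/-!
# An involution whose class is a coset of a subgroup
-/

set_option autoImplicit false

namespace Cfsg.Agent.TwoGrp

open Subgroup

/-- An involution `b` such that the commutators `[b, g]`, `g ∈ T`, form the subgroup `R`. -/
structure Inv (S : Type*) [Group S] where
  R : Subgroup S
  T : Subgroup S
  b : S
  hb : b * b = 1
  b1 : b ≠ 1
  mem : ∀ g ∈ T, b * g * b⁻¹ * g⁻¹ ∈ R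
  surj : ∀ r ∈ R, ∃ g ∈ T, r = b * g * b⁻¹ * g⁻¹
  RT : R ≤ T

namespace Inv

variable {S : Type*} [Group S] (D : Inv S)

/-- The commutator with `b`. -/
def φ (g : S) : S := D.b * g * D.b⁻¹ * g⁻¹

/-- The centralizer of `b`. -/
abbrev C : Subgroup S := centralizer {D.b}

theorem b_inv : D.b⁻¹ = D.b := inv_eq_of_mul_eq_one_right D.hb

theorem b_mem_C : D.b ∈ D.C := mem_C.mpr rfl

theorem φ_mem {g : S} (hg : g ∈ D.T) : D.φ g ∈ D.R := D.mem g hg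

theorem φ_mul (g h : S) : D.φ (g * h) = D.φ g * (g * D.φ h * g⁻¹) := by simp [φ, mul_assoc]

theorem φ_eq_one_iff {g : S} : D.φ g = 1 ↔ g ∈ D.C := by
  rw [φ, mul_inv_eq_one, mul_inv_eq_iff_eq_mul, mem_C, eq_comm]

theorem φ_eq_iff {g h : S} : D.φ g = D.φ h ↔ h⁻¹ * g ∈ D.C := by
  rw [← φ_eq_one_iff, φ_mul, show D.φ h⁻¹ = h⁻¹ * (D.φ h)⁻¹ * h by simp [φ, mul_assoc]]
  constructor
  · intro h1; rw [h1]; group
  · intro h1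
    calc _ = D.φ h * h * (h⁻¹ * (D.φ h)⁻¹ * h * (h⁻¹ * D.φ g * h⁻¹⁻¹)) * h⁻¹ := by group
      _ = _ := by rw [h1]; group

theorem φ_mul_C (g : S) {c : S} (hc : c ∈ D.C) : D.φ (g * c) = D.φ g := by
  rw [φ_mul, D.φ_eq_one_iff.mpr hc]; group

theorem conj_b (g : S) : D.b * g * D.b⁻¹ = D.φ g * g := by simp [φ]

theorem inv {r : S} (hr : r ∈ D.R) : D.b * r * D.b⁻¹ = r⁻¹ := by
  obtain ⟨g, -, rfl⟩ := D.surj r hr
  calc _ = (D.b * D.b) * g * D.b⁻¹ * g⁻¹ * D.b⁻¹ := by group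
    _ = g * D.b⁻¹⁻¹ * g⁻¹ * D.b⁻¹ := by rw [D.hb, D.b_inv, D.b_inv, one_mul]
    _ = _ := by group

theorem comm {r r' : S} (hr : r ∈ D.R) (hr' : r' ∈ D.R) : Commute r r' := by
  have := D.inv (mul_mem (inv_mem hr) (inv_mem hr'))
  rw [← conj_mul, D.inv (inv_mem hr), D.inv (inv_mem hr'), mul_inv_rev, inv_inv, inv_inv] at this
  exact this

theorem b_notMem : D.b ∉ D.R := fun h => by
  obtain ⟨g, -, hg⟩ := D.surj _ h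
  have : g * D.b⁻¹ * g⁻¹ = 1 := by
    calc _ = D.b⁻¹ * (D.b * g * D.b⁻¹ * g⁻¹) := by group
      _ = 1 := by rw [← hg, inv_mul_cancel]
  exact D.b1 (by simpa using this)

theorem φ_R {r : S} (hr : r ∈ D.R) : D.φ r = r⁻¹ * r⁻¹ := by rw [φ, D.inv hr]

theorem mem_C_iff {r : S} (hr : r ∈ D.R) : r ∈ D.C ↔ r * r = 1 := by
  rw [← φ_eq_one_iff, D.φ_R hr, ← mul_inv_rev, inv_eq_one]

/-- The subgroup of squares of `R`. -/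
def R2 : Subgroup S where
  carrier := {x | ∃ r ∈ D.R, x = r * r}
  one_mem' := ⟨1, one_mem _, (mul_one 1).symm⟩
  mul_mem' := by
    rintro _ _ ⟨r, hr, rfl⟩ ⟨r', hr', rfl⟩
    exact ⟨r * r', mul_mem hr hr', (D.comm hr hr').mul_mul_mul_comm r r'⟩
  inv_mem' := by
    rintro _ ⟨r, hr, rfl⟩
    exact ⟨r⁻¹, inv_mem hr, mul_inv_rev _ _⟩

theorem sq_mem_R2 {r : S} (hr : r ∈ D.R) : r * r ∈ D.R2 := ⟨r, hr, rfl⟩

theorem R2_le : D.R2 ≤ D.R := by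
  rintro _ ⟨r, hr, rfl⟩
  exact mul_mem hr hr

theorem φ_mem_R2 {r : S} (hr : r ∈ D.R) : D.φ r ∈ D.R2 := ⟨r⁻¹, inv_mem hr, D.φ_R hr⟩

theorem φ_R_mul {r : S} (hr : r ∈ D.R) {g : S} (hg : g ∈ D.T) :
    D.φ (r * g) = r⁻¹ * r⁻¹ * D.φ g := by
  rw [φ_mul, D.φ_R hr, (D.comm hr (D.φ_mem hg)).eq, mul_inv_cancel_right]

theorem exists_of_φ_mem_R2 {g : S} (h : D.φ g ∈ D.R2) : ∃ r ∈ D.R, r * g ∈ D.C := by
  obtain ⟨r, hr, h⟩ := h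
  have := D.φ_eq_iff.mp (h.trans (show _ = D.φ r⁻¹ by rw [D.φ_R (inv_mem hr), inv_inv]))
  exact ⟨r, hr, by rwa [inv_inv] at this⟩

theorem R2_normal [hR : D.R.Normal] : D.R2.Normal := ⟨by
  rintro _ ⟨r, hr, rfl⟩ g
  exact ⟨_, hR.conj_mem r hr g, (conj_mul ..).symm⟩⟩

theorem exists_conj [D.R.Normal] {H : Subgroup S} (h : D.b ∈ H ⊔ D.R) :
    ∃ g ∈ D.T, g * D.b * g⁻¹ ∈ H := by
  obtain ⟨x, hx, r, hr, h⟩ := mem_sup_of_normal_right.mp h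
  obtain ⟨g, hg, h1⟩ := D.surj _ (inv_mem hr)
  refine ⟨g, hg, ?_⟩
  rwa [show g * D.b * g⁻¹ = D.b⁻¹ * (D.b * g * D.b⁻¹⁻¹ * g⁻¹) by group, D.b_inv, ← h1,
    ← h, mul_inv_cancel_right]

variable [Finite S] [hS : Fact (IsPGroup 2 S)]

theorem le_of_sq {P : Subgroup S} (h : ∀ r ∈ D.R, ∃ c ∈ D.R2, r * c ∈ P) : D.R ≤ P := by
  intro r hr
  by_contra hrP
  have h1 : ∀ k : ℕ, ∀ r ∈ D.R, ∃ r' ∈ D.R, r * r' ^ 2 ^ k ∈ P := fun k => by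
    induction k with
    | zero => exact fun r hr => ⟨r⁻¹, inv_mem hr, by simp⟩
    | succ k ih =>
      intro r hr
      obtain ⟨r', hr', h2⟩ := ih r hr
      obtain ⟨_, ⟨s, hs, rfl⟩, h3⟩ := h r' hr'
      refine ⟨s⁻¹, inv_mem hs, ?_⟩
      have := mul_mem h2 (inv_mem (pow_mem h3 (2 ^ k)))
      rwa [(D.comm hr' (mul_mem hs hs)).mul_pow, (D.comm (pow_mem hr' _)
        (pow_mem (mul_mem hs hs) _)).mul_inv, mul_assoc, mul_inv_cancel_left, ← sq, ← pow_mul,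
        ← pow_succ', ← inv_pow] at this
  obtain ⟨k, hk⟩ := hS.out.exists_card_eq
  obtain ⟨r', -, h2⟩ := h1 k r hr
  rw [← hk, pow_card_eq_one', mul_one] at h2
  exact hrP h2

theorem lg_le {L W : Subgroup S} (h : ∀ l ∈ L, D.φ l ∈ W) : lg L ≤ lg W + lg (D.C ⊓ L) :=
  lg_le_of_comm_mem h

theorem surj_lg {L W : Subgroup S} (h : ∀ l ∈ L, D.φ l ∈ W) (h' : lg W + lg (D.C ⊓ L) ≤ lg L) :
    ∀ w ∈ W, ∃ l ∈ L, w = D.φ l := fun _ hw => surj_of_lg h h' hw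

theorem lg_T : lg D.T = lg D.R + lg (D.C ⊓ D.T) :=
  le_antisymm (lg_le_of_comm_mem D.mem) (lg_ge_of_surj D.surj)

theorem lg_R_le : lg D.R ≤ lg D.R2 + lg (D.C ⊓ D.R) :=
  lg_le_of_comm_mem fun _ hr => D.φ_mem_R2 hr

theorem cnt (hΩ : lg (D.C ⊓ D.R) ≤ 2) {H N : Subgroup S} (h : ∀ x ∈ H, x * x ∈ N) :
    lg (H ⊓ D.R) ≤ lg (N ⊓ D.R) + 1 ∨
      lg (H ⊓ D.R) ≤ lg (N ⊓ D.R) + 2 ∧ N ⊓ D.R ≤ D.R2 ∧ lg (D.C ⊓ D.R) = 2 := by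
  have h1 : ∀ x ∈ H ⊓ D.R, D.φ x ∈ N ⊓ D.R := fun x hx => by
    obtain ⟨hx, hx'⟩ := mem_inf.mp hx
    rw [D.φ_R hx']
    exact mem_inf.mpr ⟨h _ (inv_mem hx), mul_mem (inv_mem hx') (inv_mem hx')⟩
  have h2 := D.lg_le h1
  have h3 : lg (D.C ⊓ (H ⊓ D.R)) ≤ lg (D.C ⊓ D.R) := lg_mono (inf_le_inf_left _ inf_le_right)
  by_cases h4 : lg (H ⊓ D.R) ≤ lg (N ⊓ D.R) + 1
  · exact Or.inl h4
  refine Or.inr ⟨by omega, fun w hw => ?_, by omega⟩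
  obtain ⟨l, hl, rfl⟩ := D.surj_lg h1 (by omega) w hw
  exact D.φ_mem_R2 hl.2

variable [hR : D.R.Normal]

theorem R_le_of_surj {H N : Subgroup S} (h : ∀ x ∈ H, x * x ∈ N) (hb : D.b ∈ H)
    (hs : ∀ r ∈ D.R, ∃ g ∈ H ⊔ D.R, r = D.φ g) : D.R ≤ N := by
  have := D.R2_normal
  refine D.le_of_sq fun r hr => ?_
  obtain ⟨g, hg, rfl⟩ := hs r hr
  obtain ⟨x, hx, r, hr', rfl⟩ := mem_sup_of_normal_right.mp hg
  refine ⟨_, inv_mem (this.conj_mem _ (D.φ_mem_R2 hr') x), ?_⟩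
  rw [φ_mul, mul_inv_cancel_right]
  exact comm_mem_of_sq h hb hx

omit [Finite S] hS in
theorem sq_mem_sup {H N : Subgroup S} (h : ∀ x ∈ H, x * x ∈ N) {x : S} (hx : x ∈ H ⊔ D.R) :
    x * x ∈ N ⊔ D.R := by
  obtain ⟨y, hy, r, hr, rfl⟩ := mem_sup_of_normal_right.mp hx
  have := mul_mem_sup (h y hy) (mul_mem (hR.conj_mem _ hr y⁻¹) hr)
  rwa [show y * y * (y⁻¹ * r * y⁻¹⁻¹ * r) = y * r * (y * r) by group] at this

theorem triv_of_sq (hΩ : lg (D.C ⊓ D.R) ≤ 2) {M : Subgroup S} (hM : M ≤ D.T)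
    (h : ∀ m ∈ M, m * m ∈ D.R) (hs : ∀ r ∈ D.R, ∃ g ∈ M, r = D.φ g) {m : S} (hm : m ∈ M) {r : S}
    (hr : r ∈ D.R) : m * r * m⁻¹ * r⁻¹ ∈ D.R2 := by
  have h2 := D.R2_normal
  by_contra he
  obtain ⟨g, hg, rfl⟩ := hs r hr
  let W : Subgroup S :=
    { carrier := {r | r ∈ D.R ∧ m * r * m⁻¹ * r⁻¹ ∈ D.R2}
      one_mem' := ⟨one_mem _, by simp⟩
      mul_mem' := fun {x y} hx hy => ⟨mul_mem hx.1 hy.1, by
        have := mul_mem hx.2 (h2.conj_mem _ hy.2 x)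
        rwa [show m * x * m⁻¹ * x⁻¹ * (x * (m * y * m⁻¹ * y⁻¹) * x⁻¹) =
          m * (x * y) * m⁻¹ * (x * y)⁻¹ by group] at this⟩
      inv_mem' := fun {x} hx => ⟨inv_mem hx.1, by
        simpa [mul_assoc] using inv_mem (h2.conj_mem _ hx.2 x⁻¹)⟩ }
  have hW : D.R2 ≤ W := fun x hx => ⟨D.R2_le hx, mul_mem (h2.conj_mem x hx m) (inv_mem hx)⟩
  have h3 := lg_lt' (show W ≤ D.R from fun x hx => hx.1) hr fun h3 => he h3.2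
  have h4 := D.lg_R_le
  have hv := D.φ_mem (hM hm)
  have e1 : D.φ m ∈ W := ⟨hv, by
    have := mul_mem (D.φ_mem_R2 (h m hm)) (inv_mem (D.sq_mem_R2 hv))
    rwa [φ_mul, (D.comm hv (hR.conj_mem _ hv m)).eq, show m * D.φ m * m⁻¹ * D.φ m *
      (D.φ m * D.φ m)⁻¹ = m * D.φ m * m⁻¹ * (D.φ m)⁻¹ by group] at this⟩
  have e2 : m * D.φ g * m⁻¹ * (D.φ g)⁻¹ ∈ W := ⟨mul_mem (hR.conj_mem _ hr m) (inv_mem hr), by
    refine ⟨D.φ g * (m * D.φ g * m⁻¹)⁻¹, mul_mem hr (inv_mem (hR.conj_mem _ hr m)), ?_⟩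
    calc _ = m * m * D.φ g * (m * m)⁻¹ * (m * D.φ g * m⁻¹)⁻¹ * (D.φ g * (m * D.φ g * m⁻¹)⁻¹) := by
          group
      _ = _ := by rw [(D.comm (h m hm) hr).eq, mul_inv_cancel_right]⟩
  have e3 : g * D.φ m * g⁻¹ * (D.φ m)⁻¹ * (m * D.φ g * m⁻¹ * (D.φ g)⁻¹)⁻¹ ∈ D.R2 := by
    have hc := comm_mem_of_sq h hg hm
    have h5 := D.φ_R_mul hc (hM (mul_mem hm hg))
    rw [show g * m * g⁻¹ * m⁻¹ * (m * g) = g * m by group, φ_mul, φ_mul] at h5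
    have h6 := D.sq_mem_R2 (inv_mem hc)
    rw [← mul_inv_eq_iff_eq_mul.mpr h5, mul_inv_rev (D.φ m), ← mul_assoc,
      (D.comm hr (hR.conj_mem _ hv g)).eq, mul_assoc _ (D.φ g),
      mul_assoc _ _ (D.φ m)⁻¹, ← (D.comm (inv_mem hv) (mul_mem hr
        (inv_mem (hR.conj_mem _ hr m)))).eq] at h6
    rwa [mul_inv_rev (m * D.φ g * m⁻¹), inv_inv, mul_assoc]
  have e4 : D.φ m ∉ D.R2 := fun h5 =>
    he (by simpa [mul_assoc] using mul_mem (inv_mem e3) (mul_mem (h2.conj_mem _ h5 g) (inv_mem h5)))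
  have e5 := mul_mem_of_lg hW (by omega) e2 e1 he e4
  have e6 := h2.conj_mem _ (mul_mem e3 e5) g⁻¹
  exact e4 (by simpa [mul_assoc] using e6)

omit hR in
theorem centralizes {M : Subgroup S} (hM : M ≤ D.T) (hs : ∀ r ∈ D.R, ∃ g ∈ M, r = D.φ g) {σ : S}
    (hσ : σ ∈ D.C) (h1 : ∀ m ∈ M, σ * m * σ⁻¹ * m⁻¹ ∈ D.R2) (h2 : ∀ m ∈ M, Commute (σ * σ) m)
    {r : S} (hr : r ∈ D.R) : Commute σ r := by
  refine (mem_C.mp (D.le_of_sq (P := centralizer {σ}) (fun r hr => ?_) hr)).symm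
  obtain ⟨g, hg, rfl⟩ := hs r hr
  obtain ⟨c, hc⟩ : ∃ c, c = σ * g * σ⁻¹ * g⁻¹ := ⟨_, rfl⟩
  have hc2 := h1 g hg
  rw [← hc] at hc2
  have hcR := D.R2_le hc2
  have e1 : σ * c * σ⁻¹ = c⁻¹ := by
    calc _ = σ * σ * g * (σ * σ)⁻¹ * (σ * g⁻¹ * σ⁻¹) := by rw [hc]; group
      _ = _ := by rw [(h2 g hg).eq, hc]; group
  have e2 : σ * D.φ g * σ⁻¹ = c⁻¹ * c⁻¹ * D.φ g := by
    rw [← D.φ_R_mul hcR (hM hg), hc, inv_mul_cancel_right, D.φ_mul_C _ (inv_mem hσ), φ_mul,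
      D.φ_eq_one_iff.mpr hσ, one_mul]
  refine ⟨c⁻¹, inv_mem hc2, mem_C.mpr (mul_inv_eq_iff_eq_mul.mp ?_).symm⟩
  rw [← conj_mul, e2, ← conj_inv, e1, inv_inv, mul_assoc, (D.comm hr hcR).eq,
    (D.comm hr (inv_mem hcR)).eq]
  group

omit [Finite S] hS in
/-- Commutation modulo `R2`. -/
theorem commute_mk_iff {x y : S} : haveI := D.R2_normal
    Commute (x : S ⧸ D.R2) y ↔ x * y * x⁻¹ * y⁻¹ ∈ D.R2 := by
  have := D.R2_normal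
  rw [← QuotientGroup.eq_one_iff, ← commutatorElement_eq_one_iff_commute]
  rfl

theorem sq_mem_R2_of (hΩ : lg (D.C ⊓ D.R) ≤ 2) {H M : Subgroup S} (hM : M ≤ D.T)
    (hMH : M ≤ H ⊔ D.R) (h : ∀ x ∈ H, x * x ∈ D.R2) (hRM : D.R ≤ M)
    (hs : ∀ r ∈ D.R, ∃ g ∈ M, r = D.φ g) {m : S} (hm : m ∈ M) : m * m ∈ D.R2 := by
  have h1 : ∀ m ∈ M, m * m ∈ D.R := fun m hm => by
    simpa [sup_eq_right.mpr D.R2_le] using D.sq_mem_sup h (hMH hm)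
  obtain ⟨x, hx, r, hr, rfl⟩ := mem_sup_of_normal_right.mp (hMH hm)
  have hx' : x ∈ M := (mul_mem_cancel_right (hRM hr)).mp hm
  have := mul_mem (mul_mem (h x hx) (D.triv_of_sq hΩ hM h1 hs (inv_mem hx') hr)) (D.sq_mem_R2 hr)
  rwa [show x * x * (x⁻¹ * r * x⁻¹⁻¹ * r⁻¹) * (r * r) = x * r * (x * r) by group] at this

theorem sec_of_cases {k : ℕ}
    (h1 : ∀ H N : Subgroup S, N ≤ H → (∀ x ∈ H, x * x ∈ N) → D.b ∈ H → lg H ≤ lg N + k)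
    (h2 : ∀ H N : Subgroup S, N ≤ H → (∀ x ∈ H, x * x ∈ N) → D.b ∉ H ⊔ D.R → lg H ≤ lg N + k) :
    SectionalPRankLE 2 k S := by
  refine sectionalPRankLE_of_lg fun H N hNH h => ?_
  by_cases hb : D.b ∈ H ⊔ D.R
  swap
  · exact h2 H N hNH h hb
  obtain ⟨g, -, hg⟩ := D.exists_conj hb
  have := h1 (H.map (MulAut.conj g⁻¹).toMonoidHom) (N.map (MulAut.conj g⁻¹).toMonoidHom)
    (map_mono hNH) (by
      rintro _ ⟨x, hx, rfl⟩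
      exact ⟨x * x, h x hx, map_mul _ _ _⟩) ⟨_, hg, by simp [mul_assoc]⟩
  rwa [lg, lg, card_map_of_injective (MulAut.conj g⁻¹).injective,
    card_map_of_injective (MulAut.conj g⁻¹).injective] at this

end Inv

end Cfsg.Agent.TwoGrp
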