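import Mathlib
import Cfsg.Agent.Lib.TwoGrp.Har3

/-!
# The two final configurations in Harada's theorem
-/

set_option autoImplicit false

namespace Cfsg.Agent.TwoGrp

open Subgroup

namespace NF

variable {S : Type*} [Group S] (U : NF S)

theorem z_inv : U.z⁻¹ = U.z := inv_eq_of_mul_eq_one_right U.z2

theorem u_inv : U.u⁻¹ = U.u := inv_eq_of_mul_eq_one_right U.u2

/-- The four-group. -/
def grp : Subgroup S := four U.z U.u U.z2 U.u2 (U.zc _).symm

theorem mem_grp {x : S} : x ∈ U.grp ↔ x = 1 ∨ x = U.z ∨ x = U.u ∨ x = U.z * U.u := mem_four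

theorem z_mem : U.z ∈ U.grp := U.mem_grp.mpr (by simp)

theorem u_mem : U.u ∈ U.grp := U.mem_grp.mpr (by simp)

theorem isKleinFour : IsKleinFour U.grp := isKleinFour_four _ _ _ U.z1 U.u1 U.uz.symm

theorem lg_grp : lg U.grp = 2 := lg_of_isKleinFour U.isKleinFour

theorem sq {x : S} (hx : x ∈ U.grp) : x * x = 1 := kleinFour_mul_self U.isKleinFour hx

/-- The centralizer of the four-group. -/
def T : Subgroup S := centralizer {U.u}

theorem mem_T {g : S} : g ∈ U.T ↔ g * U.u = U.u * g := mem_C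

theorem conj_of_notMem {g : S} (hg : g ∉ U.T) : g * U.u * g⁻¹ = U.z * U.u :=
  ((U.conj g).resolve_left fun h => hg (U.mem_T.mpr (mul_inv_eq_iff_eq_mul.mp h))).trans (U.zc _)

theorem conj_z (g : S) : g * U.z * g⁻¹ = U.z := by rw [U.zc, mul_inv_cancel_right]

theorem normal : U.grp.Normal := ⟨fun x hx g => by
  have h : g * U.u * g⁻¹ ∈ U.grp := by
    rcases U.conj g with h | h <;> rw [h]
    exacts [U.u_mem, mul_mem U.u_mem U.z_mem]
  rcases U.mem_grp.mp hx with rfl | rfl | rfl | rfl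
  · simp
  · rw [conj_z]; exact hx
  · exact h
  · rw [← conj_mul, conj_z]; exact mul_mem U.z_mem h⟩

theorem commute {g x : S} (hg : g ∈ U.T) (hx : x ∈ U.grp) : Commute g x := by
  rcases U.mem_grp.mp hx with rfl | rfl | rfl | rfl
  exacts [Commute.one_right g, U.zc g, U.mem_T.mp hg,
    (show Commute g U.z from U.zc g).mul_right (U.mem_T.mp hg)]

theorem grp_le : U.grp ≤ U.T := fun _ hx => U.mem_T.mpr (kleinFour_comm U.isKleinFour hx U.u_mem)

theorem mul_mem_T {g h : S} (hg : g ∉ U.T) (hh : h ∉ U.T) : g * h ∈ U.T := by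
  refine U.mem_T.mpr (mul_inv_eq_iff_eq_mul.mp ?_)
  calc _ = g * (h * U.u * h⁻¹) * g⁻¹ := by group
    _ = _ := by
      rw [U.conj_of_notMem hh, ← conj_mul, conj_z, U.conj_of_notMem hg, ← mul_assoc, U.z2, one_mul]

theorem sq_mem_T (g : S) : g * g ∈ U.T :=
  (em (g ∈ U.T)).elim (fun h => mul_mem h h) fun h => U.mul_mem_T h h

theorem T_normal : U.T.Normal := ⟨fun x hx g => by
  by_cases hg : g ∈ U.T
  · exact mul_mem (mul_mem hg hx) (inv_mem hg)
  · exact U.mul_mem_T (by rwa [mul_mem_cancel_right hx]) (by rwa [inv_mem_iff])⟩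

theorem eq_of_commute {g x : S} (hg : g ∉ U.T) (hx : x ∈ U.grp) (h : g * x * g⁻¹ = x) :
    x = 1 ∨ x = U.z := by
  rcases U.mem_grp.mp hx with rfl | rfl | rfl | rfl
  · exact Or.inl rfl
  · exact Or.inr rfl
  · exact absurd (U.mem_T.mpr (mul_inv_eq_iff_eq_mul.mp h)) hg
  · rw [← conj_mul, conj_z, mul_right_inj] at h
    exact absurd (U.mem_T.mpr (mul_inv_eq_iff_eq_mul.mp h)) hg

theorem comm_mem (g : S) {x : S} (hx : x ∈ U.grp) :
    g * x * g⁻¹ * x⁻¹ = 1 ∨ g * x * g⁻¹ * x⁻¹ = U.z := by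
  by_cases hg : g ∈ U.T
  · left; rw [(U.commute hg hx).eq]; group
  rcases U.mem_grp.mp hx with rfl | rfl | rfl | rfl
  · left; group
  · left; rw [conj_z]; group
  · right; rw [U.conj_of_notMem hg]; group
  · right; rw [← conj_mul, conj_z, U.conj_of_notMem hg]; group

end NF

namespace Inv

variable {S : Type*} [Group S] [Finite S] [hS : Fact (IsPGroup 2 S)] (D : Inv S) [hR : D.R.Normal]

theorem sec_two (hT : D.T = ⊤) (hC : lg D.C = 5) (hΩ : lg (D.C ⊓ D.R) = 2)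
    (hY : ∀ w ∈ D.C, w ∉ D.R → D.b * w ∉ D.R → ∃ y ∈ D.C, D.b * (y * w * y⁻¹ * w⁻¹) ∈ D.R) :
    SectionalPRankLE 2 4 S := by
  have h2 := D.R2_normal
  have hmem : ∀ g, D.φ g ∈ D.R := fun g => D.φ_mem (hT ▸ mem_top g)
  have hlg : lg (⊤ : Subgroup S) = lg D.R + 5 := by
    have := D.lg_T
    rwa [hT, inf_top_eq, hC] at this
  have key : ∀ P : Subgroup S, D.R ≤ P → (∀ x ∈ D.C, x * x ∈ P) → D.b ∈ P := by
    intro P hP h
    let E := ext2 D.R D.b (D.hb ▸ one_mem _) fun m hm => hR.conj_mem m hm _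
    have h1 := lg_le_succ (M := D.R) (K := E ⊓ D.C) fun x hx y hy hx' hy' =>
      mul_mem_of_lg le_ext2 lg_ext2_le hx.1 hy.1 hx' hy'
    have h3 : lg (D.R ⊓ (E ⊓ D.C)) ≤ lg (D.C ⊓ D.R) := lg_mono fun x hx => ⟨hx.2.2, hx.1⟩
    obtain ⟨w, hw, hw'⟩ := exists_notMem_of_lg (H := E ⊓ D.C) (K := D.C) (by omega)
    obtain ⟨y, hy, h4⟩ := hY w hw (fun h4 => hw' ⟨Or.inl h4, hw⟩) fun h4 => hw' ⟨Or.inr h4, hw⟩
    exact (mul_mem_cancel_right (comm_mem_of_sq h hy hw)).mp (hP h4)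
  have key' : ¬ ∀ x ∈ D.C, x * x ∈ D.R := fun h => D.b_notMem (key _ le_rfl h)
  refine D.sec_of_cases (fun H N hNH h hb => ?_) fun H N hNH h hb => ?_
  · by_contra hlt
    have e1 := lg_sup_add H D.R
    have e2 := lg_sup_add N D.R
    have e3 : lg D.R ≤ lg (N ⊔ D.R) := lg_mono le_sup_right
    have e4 : lg (H ⊔ D.R) ≤ lg (⊤ : Subgroup S) := lg_mono le_top
    rcases D.cnt hΩ.le h with h1 | ⟨h1, h3, -⟩
    · have hs : ∀ r ∈ D.R, ∃ g ∈ H ⊔ D.R, r = D.φ g := by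
        by_cases h3 : D.C ≤ H ⊔ D.R
        · have h4 := lg_lt (le_sup_right : D.R ≤ N ⊔ D.R) fun h4 =>
            key' fun x hx => h4 (D.sq_mem_sup h (h3 hx))
          rw [eq_of_le_of_lg_le (le_top : H ⊔ D.R ≤ ⊤) (by omega), ← hT]
          exact D.surj
        · have h4 := lg_lt (inf_le_left : D.C ⊓ (H ⊔ D.R) ≤ D.C) fun h4 => h3 (h4.trans inf_le_right)
          exact D.surj_lg (fun l _ => hmem l) (by omega)
      have h4 := D.R_le_of_surj h hb hs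
      have h5 : lg H ≤ lg (⊤ : Subgroup S) := lg_mono le_top
      have h6 := lg_mono h4
      refine key' fun x _ => ?_
      rw [eq_of_le_of_lg_le h4 (by omega)]
      exact h x (eq_of_le_of_lg_le (le_top : H ≤ ⊤) (by omega) ▸ mem_top x)
    · have h4 : H ⊔ D.R ≤ D.C ⊔ D.R := sup_le (fun x hx => by
        obtain ⟨r, hr, h4⟩ := D.exists_of_φ_mem_R2 (h3 ⟨comm_mem_of_sq h hb hx, hmem x⟩)
        exact (mul_mem_cancel_left (mem_sup_right hr)).mp (mem_sup_left h4)) le_sup_right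
      have h5 := lg_sup_add D.C D.R
      have h6 := lg_mono h4
      refine key' fun x hx => ?_
      rw [eq_of_le_of_lg_le (le_sup_right : D.R ≤ N ⊔ D.R) (by omega)]
      exact D.sq_mem_sup h (eq_of_le_of_lg_le h4 (by omega) ▸ mem_sup_left hx)
  · by_contra hlt
    have e1 := lg_sup_add H D.R
    have e2 := lg_sup_add N D.R
    have e3 : lg D.R ≤ lg (N ⊔ D.R) := lg_mono le_sup_right
    have e4 : lg (H ⊔ D.R) + 2 ≤ lg (⊤ : Subgroup S) := by
      by_contra h1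
      exact hb (key _ le_sup_right fun x _ => sq_mem_of_lg le_top (by omega) (mem_top x))
    obtain ⟨h1, h3, -⟩ := (D.cnt hΩ.le h).resolve_left (by omega)
    have h4 : N ≤ D.R2 := fun x hx => h3 ⟨hx, by
      rw [eq_of_le_of_lg_le (le_sup_right : D.R ≤ N ⊔ D.R) (by omega)]; exact mem_sup_left hx⟩
    have h5 : lg (H ⊔ D.R) = lg D.R + 3 := by omega
    have h6 : ∀ m ∈ H ⊔ D.R, m * m ∈ D.R := fun m hm => by
      simpa [sup_eq_right.mpr (h4.trans D.R2_le)] using D.sq_mem_sup h hm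
    have hRM : D.R ≤ H ⊔ D.R := le_sup_right
    have hsq := fun hs => @sq_mem_R2_of _ _ D _ _ _ hΩ.le H (H ⊔ D.R) (hT ▸ le_top) le_rfl
      (fun x hx => h4 (h x hx)) hRM hs
    generalize H ⊔ D.R = M at hb h5 h6 hRM hsq
    let M' := ext2 M D.b (D.hb ▸ one_mem _) fun m hm => by
      rw [D.conj_b]; exact mul_mem (hRM (hmem m)) hm
    have h7 : ¬ D.C ≤ M' := fun h7 => key' fun x hx => by
      rcases h7 hx with h8 | h8
      · exact h6 x h8
      · have := h6 _ h8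
        rwa [mul_assoc, ← mul_assoc x, mem_C.mp hx, ← mul_assoc, ← mul_assoc, D.hb,
          one_mul] at this
    have h8 := lg_lt (inf_le_left : D.C ⊓ M' ≤ D.C) fun h8 => h7 (h8.trans inf_le_right)
    have h9 : lg (D.C ⊓ M) < lg (D.C ⊓ M') :=
      lg_lt' (inf_le_inf_left D.C le_ext2) ⟨D.b_mem_C, self_mem_ext2⟩ fun h9 => hb h9.2
    have hs := D.surj_lg (L := M) (fun l _ => hmem l) (by omega)
    have h10 := D.lg_le (L := M) fun l _ => hmem l
    obtain ⟨w, hwC, hw⟩ := exists_notMem_of_lg (H := D.C ⊓ D.R) (K := D.C ⊓ M) (by omega)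
    obtain ⟨hwC, hwM⟩ := mem_inf.mp hwC
    obtain ⟨y, -, hy⟩ := hY w hwC (fun h11 => hw ⟨hwC, h11⟩) fun h11 =>
      hb ((mul_mem_cancel_right hwM).mp (hRM h11))
    have h11 : ∀ x ∈ M, ∀ m ∈ M, Commute (x : S ⧸ D.R2) m := fun x hx m hm =>
      D.commute_mk_iff.mpr (comm_mem_of_sq (fun _ => hsq hs) hx hm)
    have h12 : ∀ m ∈ M', Commute (w : S ⧸ D.R2) m := fun m hm => by
      rcases hm with hm | hm
      · exact h11 w hwM m hm
      · have := (((show Commute w D.b from mem_C.mp hwC).map (QuotientGroup.mk' D.R2)).inv_right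
          ).mul_right (h11 w hwM _ hm)
        simpa using this
    have h13 : lg M < lg M' := lg_lt' le_ext2 self_mem_ext2 hb
    have h14 : D.R ≤ ⊥ := D.le_of_sq fun r hr => by
      obtain ⟨m, hm, rfl⟩ := hs r hr
      refine ⟨_, inv_mem (D.commute_mk_iff.mp ?_), mem_bot.mpr (mul_inv_cancel _)⟩
      have e5 := (h12 _ (conj_mem_of_lg le_top (by omega) (mem_top y⁻¹) (le_ext2 hm))).map
        (MulAut.conj (y : S ⧸ D.R2))
      have e6 : Commute ((y : S ⧸ D.R2) * w * (y : S ⧸ D.R2)⁻¹) m := by simpa [mul_assoc] using e5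
      have e7 := (h11 _ (hRM hy) m hm).mul_left (e6.mul_left (h11 w hwM m hm).inv_left).inv_left
      simpa [mul_assoc] using e7
    have h15 := lg_mono (inf_le_right.trans h14 : D.C ⊓ D.R ≤ ⊥)
    rw [lg_bot] at h15
    omega

theorem sec_one (U : NF S) (hT : D.T = U.T) (hb : D.b ∈ U.T)
    (hA : ∀ x ∈ D.C ⊓ D.T, x ∈ U.grp ∨ D.b * x ∈ U.grp) (hbU : D.b ∉ U.grp)
    (hlg : lg D.T = lg D.R + 3) : SectionalPRankLE 2 4 S := by
  have h2 := D.R2_normal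
  have hTn := U.T_normal
  rw [← hT] at hb hTn
  have hlg' : ∀ K : Subgroup S, lg K ≤ lg (D.T ⊓ K) + 1 := fun K =>
    lg_le_succ fun x _ y _ hx hy => by rw [hT] at *; exact U.mul_mem_T hx hy
  have hCU : D.C ⊓ D.R ≤ U.grp := fun x hx => (hA x ⟨hx.1, D.RT hx.2⟩).resolve_right fun h => by
    obtain ⟨g, hg, h1⟩ := D.surj x hx.2
    rw [h1, ← mul_assoc, ← mul_assoc, ← mul_assoc, D.hb, one_mul] at h
    have := U.normal.conj_mem _ h g⁻¹
    exact hbU (by simpa [mul_assoc] using this)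
  have hΩ : lg (D.C ⊓ D.R) ≤ 2 := (lg_mono hCU).trans U.lg_grp.le
  have common : ∀ H N : Subgroup S, (∀ x ∈ H, x * x ∈ N) → lg N + 4 < lg H → ¬ D.T ≤ H ⊔ D.R →
      N ≤ D.R2 ∧ lg (D.T ⊓ (H ⊔ D.R)) = lg D.R + 2 ∧ ¬ H ≤ D.T ∧ U.grp ≤ D.R := by
    intro H N h hlt hH
    have e1 := lg_sup_add H D.R
    have e2 := lg_sup_add N D.R
    have e3 : lg D.R ≤ lg (N ⊔ D.R) := lg_mono le_sup_right
    have e4 := lg_lt (inf_le_left : D.T ⊓ (H ⊔ D.R) ≤ D.T) fun h1 => hH (h1.trans inf_le_right)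
    have e5 := hlg' (H ⊔ D.R)
    obtain ⟨h1, h3, h4⟩ := (D.cnt hΩ h).resolve_left (by omega)
    refine ⟨fun x hx => h3 ⟨hx, ?_⟩, by omega, fun h5 => ?_, ?_⟩
    · rw [eq_of_le_of_lg_le (le_sup_right : D.R ≤ N ⊔ D.R) (by omega)]; exact mem_sup_left hx
    · rw [inf_of_le_right (sup_le h5 D.RT)] at e4
      omega
    · rw [← eq_of_le_of_lg_le hCU (by rw [U.lg_grp, h4])]; exact inf_le_right
  refine D.sec_of_cases (fun H N hNH h hbH => ?_) fun H N hNH h hbH => ?_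
  · by_contra hlt
    by_cases hH : D.T ≤ H ⊔ D.R
    · have h1 := lg_mono (D.R_le_of_surj h hbH fun r hr => by
        obtain ⟨g, hg, h1⟩ := D.surj r hr
        exact ⟨g, hH hg, h1⟩)
      have h3 := hlg' H
      have h4 : lg (D.T ⊓ H) ≤ lg D.T := lg_mono inf_le_left
      omega
    obtain ⟨h1, h3, -, h4⟩ := common H N h (by omega) hH
    have h5 : D.T ⊓ (H ⊔ D.R) ≤ ext2 D.R D.b (D.hb ▸ one_mem _)
        fun m hm => hR.conj_mem m hm _ := by
      rintro _ ⟨hx, hx'⟩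
      obtain ⟨x, hxH, r, hr, rfl⟩ := mem_sup_of_normal_right.mp hx'
      have hxT : x ∈ D.T := (mul_mem_cancel_right (D.RT hr)).mp hx
      obtain ⟨r', hr', h5⟩ := D.exists_of_φ_mem_R2 (h1 (comm_mem_of_sq h hbH hxH))
      refine mul_mem ((mul_mem_cancel_left (le_ext2 hr')).mp ?_) (le_ext2 hr)
      exact (hA _ ⟨h5, mul_mem (D.RT hr') hxT⟩).imp (fun h6 => h4 h6) fun h6 => h4 h6
    have := (lg_mono h5).trans lg_ext2_le
    omega
  · by_contra hlt
    obtain ⟨h1, h3, h4, h5⟩ := common H N h (by omega) fun hH => hbH (hH hb)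
    obtain ⟨s, hs, hsT⟩ := SetLike.not_le_iff_exists.mp h4
    have hRM : D.R ≤ D.T ⊓ (H ⊔ D.R) := le_inf D.RT le_sup_right
    have hdec : ∀ g ∈ D.T, g ∉ D.T ⊓ (H ⊔ D.R) → g * D.b ∈ D.T ⊓ (H ⊔ D.R) := fun g hg hg' =>
      mul_mem_of_lg inf_le_left (by omega) hg hb hg' fun h6 => hbH h6.2
    have hsurj : ∀ r ∈ D.R, ∃ g ∈ D.T ⊓ (H ⊔ D.R), r = D.φ g := fun r hr => by
      obtain ⟨g, hg, h6⟩ := D.surj r hr
      by_cases hg' : g ∈ D.T ⊓ (H ⊔ D.R)
      · exact ⟨g, hg', h6⟩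
      · exact ⟨_, hdec g hg hg', by rw [D.φ_mul_C _ D.b_mem_C]; exact h6⟩
    have hsq : ∀ m ∈ D.T ⊓ (H ⊔ D.R), m * m ∈ D.R2 := fun m hm =>
      D.sq_mem_R2_of hΩ inf_le_left inf_le_right (fun x hx => h1 (h x hx)) hRM hsurj hm
    have hcm : ∀ x ∈ D.T ⊓ (H ⊔ D.R), ∀ m ∈ D.T ⊓ (H ⊔ D.R), Commute (x : S ⧸ D.R2) m :=
      fun x hx m hm => D.commute_mk_iff.mpr (comm_mem_of_sq hsq hx hm)
    have hsH : ∀ x ∈ H, Commute (s : S ⧸ D.R2) x := fun x hx =>
      D.commute_mk_iff.mpr (h1 (comm_mem_of_sq h hs hx))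
    obtain ⟨m, hm⟩ : ∃ m, m = s * D.b * s⁻¹ * D.b := ⟨_, rfl⟩
    have hmM : m ∈ D.T ⊓ (H ⊔ D.R) := hm ▸ hdec _ (hTn.conj_mem _ hb s) fun h6 => hbH (by
      have := mul_mem (mul_mem (inv_mem (mem_sup_left hs)) h6.2) (mem_sup_left (T := D.R) hs)
      simpa [mul_assoc] using this)
    have hm' : s * D.b * s⁻¹ = m * D.b := by rw [hm, mul_assoc _ D.b D.b, D.hb, mul_one]
    have hconj : ∀ g, s * D.φ g * s⁻¹ =
        m * D.φ (s * g * s⁻¹) * (s * g * s⁻¹) * m⁻¹ * (s * g * s⁻¹)⁻¹ := fun g => by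
      calc _ = s * D.b * s⁻¹ * (s * g * s⁻¹) * (s * D.b * s⁻¹)⁻¹ * (s * g * s⁻¹)⁻¹ := by
            rw [φ]; group
        _ = _ := by rw [hm', φ]; group
    have hmR : ∀ r ∈ D.R, Commute m r := fun r hr => by
      have e1 := D.inv (hR.conj_mem _ (inv_mem hr) s⁻¹)
      refine mul_inv_eq_iff_eq_mul.mp ?_
      calc _ = m * (D.b * r⁻¹ * D.b⁻¹) * m⁻¹ := by rw [D.inv (inv_mem hr), inv_inv]
        _ = m * D.b * r⁻¹ * (m * D.b)⁻¹ := by group
        _ = s * (D.b * (s⁻¹ * r⁻¹ * s⁻¹⁻¹) * D.b⁻¹) * s⁻¹ := by rw [← hm']; group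
        _ = r := by rw [e1]; group
    have hsM : ∀ x ∈ D.T ⊓ (H ⊔ D.R), Commute (s : S ⧸ D.R2) x := by
      have e1 : ∀ r ∈ D.R, Commute (s : S ⧸ D.R2) r := fun r hr => by
        obtain ⟨g, ⟨hg, hg'⟩, rfl⟩ := hsurj r hr
        obtain ⟨x, hx, r, hr', rfl⟩ := mem_sup_of_normal_right.mp hg'
        have hxT : x ∈ D.T := (mul_mem_cancel_right (D.RT hr')).mp hg
        have hxM : x ∈ D.T ⊓ (H ⊔ D.R) := ⟨hxT, mem_sup_left hx⟩
        rw [φ_mul, QuotientGroup.mk_mul,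
          (QuotientGroup.eq_one_iff _).mpr (h2.conj_mem _ (D.φ_mem_R2 hr') x), mul_one]
        have e2 : ((s * x * s⁻¹ : S) : S ⧸ D.R2) = x := by
          simpa using mul_inv_eq_iff_eq_mul.mpr (hsH x hx).eq
        have e3 : ((D.φ (s * x * s⁻¹) : S) : S ⧸ D.R2) = D.φ x := by
          simp only [φ, QuotientGroup.mk_mul D.R2 _ (s * x * s⁻¹)⁻¹, QuotientGroup.mk_inv,
            QuotientGroup.mk_mul D.R2 _ D.b⁻¹, QuotientGroup.mk_mul D.R2 D.b, e2,
            QuotientGroup.mk_mul D.R2 _ x⁻¹]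
        have e4 := congrArg (QuotientGroup.mk (s := D.R2)) (hconj x)
        rw [QuotientGroup.mk_mul D.R2 _ (s * x * s⁻¹)⁻¹, QuotientGroup.mk_inv,
          QuotientGroup.mk_mul D.R2 _ m⁻¹, QuotientGroup.mk_mul D.R2 _ (s * x * s⁻¹),
          QuotientGroup.mk_mul D.R2 m, e2, e3, QuotientGroup.mk_inv,
          (hcm m hmM _ (hRM (D.φ_mem hxT))).eq, mul_assoc _ (m : S ⧸ D.R2),
          (hcm m hmM x hxM).eq] at e4
        refine mul_inv_eq_iff_eq_mul.mp ?_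
        simpa [mul_assoc] using e4
      rintro _ ⟨-, hx⟩
      obtain ⟨x, hx', r, hr, rfl⟩ := mem_sup_of_normal_right.mp hx
      exact (hsH x hx').mul_right (e1 r hr)
    have hsU : s ∉ U.T := hT ▸ hsT
    by_cases hmR' : m ∈ D.R
    · obtain ⟨g, hg, h6⟩ := hsurj _ (inv_mem hmR')
      have e1 : g⁻¹ * s ∈ D.C := by
        refine mem_C.mpr (mul_inv_eq_iff_eq_mul.mp ?_)
        calc _ = g⁻¹ * (s * D.b * s⁻¹) * g := by group
          _ = g⁻¹ * (D.φ g)⁻¹ * D.b * g := by rw [hm', ← h6]; group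
          _ = D.b := by rw [φ]; group
      have e2 : g⁻¹ * s ∉ U.T := by rwa [mul_mem_cancel_left (inv_mem (hT ▸ hg.1))]
      have e3 : g⁻¹ * s * (g⁻¹ * s) ∈ U.grp := by
        refine (hA _ ⟨mul_mem e1 e1, hT ▸ U.sq_mem_T _⟩).resolve_right fun h7 => hbH ?_
        have e4 := mul_mem (inv_mem (mem_inf.mp hg).2) (mem_sup_left hs)
        exact (mul_mem_cancel_right (mul_mem e4 e4)).mp (mem_sup_right (h5 h7))
      exact e2 (U.mem_T.mpr (D.centralizes inf_le_left hsurj e1 (fun x hx =>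
        D.commute_mk_iff.mp ((hcm _ (inv_mem hg) x hx).mul_left (hsM x hx)))
        (fun x hx => (U.commute (hT ▸ hx.1) e3).symm) (h5 U.u_mem)))
    obtain ⟨r, hr, h6⟩ := hsq m hmM
    obtain ⟨k, hk⟩ : ∃ k, k = m * r⁻¹ := ⟨_, rfl⟩
    have hkM : k ∈ D.T ⊓ (H ⊔ D.R) := hk ▸ mul_mem hmM (hRM (inv_mem hr))
    have hkR : ∀ r' ∈ D.R, Commute k r' := fun r' hr' =>
      hk ▸ (hmR r' hr').mul_left (D.comm (inv_mem hr) hr')
    have hk2 : k * k = 1 := by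
      rw [hk, ← sq, (hmR r hr).inv_right.mul_pow, inv_pow, sq, sq, h6, mul_inv_cancel]
    have hy := D.φ_mem hkM.1
    have hy2 : D.φ k * D.φ k = 1 := by
      have e1 : D.b * k * D.b⁻¹ * (D.b * k * D.b⁻¹) = 1 := by rw [conj_mul, hk2]; group
      rwa [D.conj_b, ← sq, (hkR _ hy).symm.mul_pow, sq, sq, hk2, mul_one] at e1
    obtain ⟨c, hc⟩ : ∃ c, c = s * k * s⁻¹ * k⁻¹ := ⟨_, rfl⟩
    have hcR : c ∈ D.R := hc ▸ D.R2_le (D.commute_mk_iff.mp (hsM k hkM))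
    have hc' : s * k * s⁻¹ = c * k := by rw [hc, inv_mul_cancel_right]
    have hc2 : c⁻¹ * c⁻¹ = 1 := by
      have e1 : s * k * s⁻¹ * (s * k * s⁻¹) = 1 := by rw [conj_mul, hk2]; group
      rw [hc', ← sq, (hkR _ hcR).symm.mul_pow, sq, sq, hk2, mul_one] at e1
      rw [← mul_inv_rev, e1, inv_one]
    have e1 : s * D.φ k * s⁻¹ = D.φ k := by
      have e2 : Commute m (c * k) :=
        (hmR c hcR).mul_right (hk ▸ (Commute.refl m).mul_right (hmR r hr).inv_right)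
      rw [hconj, hc', D.φ_R_mul hcR hkM.1, hc2, one_mul, (hmR _ hy).eq, mul_assoc _ m, e2.eq]
      group
    have e2 : D.φ k ∈ D.R2 := by
      rcases U.eq_of_commute hsU (hCU ⟨(D.mem_C_iff hy).mpr hy2, hy⟩) e1 with h7 | h7 <;> rw [h7]
      · exact one_mem _
      · have := D.commute_mk_iff.mp (hsM _ (hRM (h5 U.u_mem)))
        rwa [U.conj_of_notMem hsU, mul_inv_cancel_right] at this
    obtain ⟨r', hr', h7⟩ := D.exists_of_φ_mem_R2 e2
    rcases hA _ ⟨h7, mul_mem (D.RT hr') hkM.1⟩ with h8 | h8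
    · exact hmR' ((mul_mem_cancel_right (inv_mem hr)).mp
        (hk ▸ (mul_mem_cancel_left hr').mp (h5 h8)))
    · exact hbH ((mul_mem_cancel_right (mul_mem (mem_sup_right hr') hkM.2)).mp
        (mem_sup_right (h5 h8)))

end Inv

end Cfsg.Agent.TwoGrp
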