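import Mathlib
import Cfsg.Agent.Lib.TwoGrp.Har4

/-!
# Harada's theorem: a self-centralizing `E₈` forces sectional 2-rank at most four
-/

set_option autoImplicit false

namespace Cfsg.Agent.TwoGrp

open Subgroup

section
variable {S : Type*} [Group S] [Finite S] [hS : Fact (IsPGroup 2 S)]

theorem comm_mem_of_lg {L W : Subgroup S} {x : S} (h : ∀ w ∈ W, ∃ l ∈ L, w = x * l * x⁻¹ * l⁻¹)
    (h' : lg L ≤ lg W + lg (centralizer {x} ⊓ L)) {l : S} (hl : l ∈ L) :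
    x * l * x⁻¹ * l⁻¹ ∈ W := by
  have h1 : (W : Set S) = {w | ∃ l ∈ L, w = x * l * x⁻¹ * l⁻¹} :=
    Set.eq_of_subset_of_ncard_le h (by
      rw [ncard_comm, relIndex_eq_lg, ← Nat.card_coe_set_eq, SetLike.coe_sort_coe, card_eq_lg,
        Nat.pow_le_pow_iff_right (by norm_num)]
      omega)
  exact h1.ge ⟨l, hl, rfl⟩

omit [Finite S] hS in
theorem mk_mem_C_iff (W : Subgroup S) [W.Normal] {x l : S} :
    (l : S ⧸ W) ∈ centralizer {(x : S ⧸ W)} ↔ x * l * x⁻¹ * l⁻¹ ∈ W := by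
  rw [mem_C, ← QuotientGroup.eq_one_iff, eq_comm, ← mul_inv_eq_one, mul_inv_rev, ← mul_assoc]
  rfl

theorem lg_centralizer_mk_le (W : Subgroup S) [W.Normal] (x : S) :
    lg (centralizer {(x : S ⧸ W)}) ≤ lg (centralizer {x}) := by
  have h1 := lg_comap_mk W (centralizer {(x : S ⧸ W)})
  have h2 := lg_le_of_comm_mem (L := (centralizer {(x : S ⧸ W)}).comap (QuotientGroup.mk' W))
    (x := x) fun l hl => (mk_mem_C_iff W).mp hl
  have h3 : lg (centralizer {x} ⊓ (centralizer {(x : S ⧸ W)}).comap (QuotientGroup.mk' W)) ≤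
    lg (centralizer {x}) := lg_mono inf_le_left
  omega

theorem sec_of_NF (U : NF S) {b : S} (hb : b * b = 1) (hbT : b ∈ U.T) (hbU : b ∉ U.grp)
    (hA : ∀ x ∈ U.T, x * b = b * x → x ∈ U.grp ∨ b * x ∈ U.grp) : SectionalPRankLE 2 4 S := by
  have hn := U.normal
  have hT := U.T_normal
  have hA' : ∀ x ∈ centralizer {b} ⊓ U.T, x ∈ U.grp ∨ b * x ∈ U.grp := fun x hx =>
    hA x hx.2 (mem_C.mp hx.1)
  have h1 := (lg_mono (H := centralizer {b} ⊓ U.T) (K := ext2 U.grp b (hb ▸ one_mem _)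
    fun m hm => hn.conj_mem m hm b) hA').trans lg_ext2_le
  have h2 := lg_lt' (H := U.grp) (K := centralizer {b} ⊓ U.T)
    (fun x hx => ⟨mem_C.mpr (U.commute hbT hx).symm, U.grp_le hx⟩) ⟨mem_C.mpr rfl, hbT⟩ hbU
  have h3 := U.lg_grp
  obtain ⟨h4, h5⟩ := commutator_surj hbT (fun x hx => by
    rcases hA' x hx with h | h
    · exact U.sq h
    · have := U.sq h
      rwa [mul_assoc, ← mul_assoc x, mem_C.mp hx.1, ← mul_assoc, ← mul_assoc, hb,
        one_mul] at this) (by omega)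
  let D : Inv S := ⟨⁅U.T, U.T⁆, U.T, b, hb, fun h => hbU (h ▸ one_mem _),
    fun g hg => commutator_mem_commutator hbT hg, h5, commutator_le_self _⟩
  have : D.R.Normal := commutator_normal _ _
  exact D.sec_one U rfl hbT hA' hbU h4

end

/-- A self-centralizing `E₈ = ⟨z, a, b⟩` not containing the normal four-group `⟨z, u⟩`. -/
structure Cfg (S : Type*) [Group S] extends NF S where
  a : S
  b : S
  a2 : a * a = 1
  b2 : b * b = 1
  ab : a * b = b * a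
  aT : a ∉ toNF.T
  bT : b ∈ toNF.T
  bU : b ∉ toNF.grp
  hA : ∀ x, x * a = a * x → x * b = b * x →
    x ∈ four z b z2 b2 (zc b).symm ∨ a * x ∈ four z b z2 b2 (zc b).symm

namespace Cfg

variable {S : Type*} [Group S] (X : Cfg S)

/-- The four-group `⟨z, b⟩`. -/
def W : Subgroup S := four X.z X.b X.z2 X.b2 (X.zc _).symm

theorem mem_W {x : S} : x ∈ X.W ↔ x = 1 ∨ x = X.z ∨ x = X.b ∨ x = X.z * X.b := mem_four

theorem b1 : X.b ≠ 1 := fun h => X.bU (h ▸ one_mem _)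

theorem isKleinFour_W : IsKleinFour X.W :=
  isKleinFour_four _ _ _ X.z1 X.b1 fun h => X.bU (h ▸ X.z_mem)

/-- The elementary abelian group `⟨z, u, b⟩`. -/
def E : Subgroup S := ext2 X.grp X.b (X.b2 ▸ one_mem _) fun m hm => X.normal.conj_mem m hm _

theorem W_le_E : X.W ≤ X.E := fun x hx => by
  rcases X.mem_W.mp hx with rfl | rfl | rfl | rfl
  exacts [one_mem _, le_ext2 X.z_mem, self_mem_ext2, mul_mem (le_ext2 X.z_mem) self_mem_ext2]

theorem E_le_T : X.E ≤ X.T := fun _ hx =>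
  hx.elim (fun h => X.grp_le h) fun h => (mul_mem_cancel_left X.bT).mp (X.grp_le h)

theorem au : X.a * X.u * X.a⁻¹ * X.u⁻¹ = X.z := by
  rw [X.conj_of_notMem X.aT, mul_inv_cancel_right]

theorem ub : X.u * X.b = X.b * X.u := (X.mem_T.mp X.bT).symm

theorem eq_of_mem_W {P : Subgroup S} (hz : X.z ∈ P) (hb : X.b ∉ P) {x : S} (hx : x ∈ X.W)
    (hP : x ∈ P) : x = 1 ∨ x = X.z := by
  rcases X.mem_W.mp hx with rfl | rfl | rfl | rfl
  exacts [Or.inl rfl, Or.inr rfl, absurd hP hb, absurd ((mul_mem_cancel_left hz).mp hP) hb]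

theorem mem_W_of {x : S} (hT : x ∈ X.T) (ha : x * X.a = X.a * x) (hb : x * X.b = X.b * x) :
    x ∈ X.W := (X.hA x ha hb).resolve_right fun h =>
  X.aT ((mul_mem_cancel_right hT).mp (X.E_le_T (X.W_le_E h)))

theorem mem_E {y : S} (hy : y * X.b = X.b * y)
    (h : X.a * y * X.a⁻¹ * y⁻¹ = 1 ∨ X.a * y * X.a⁻¹ * y⁻¹ = X.z) : y ∈ X.E ∨ X.a * y ∈ X.E := by
  rcases h with h | h
  · rw [mul_inv_eq_one, mul_inv_eq_iff_eq_mul] at h
    exact (X.hA y h.symm hy).imp (fun h => X.W_le_E h) fun h => X.W_le_E h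
  · have h1 : X.u * y * X.a = X.a * (X.u * y) := by
      refine (mul_inv_eq_iff_eq_mul.mp ?_).symm
      rw [← conj_mul, X.conj_of_notMem X.aT, mul_inv_eq_iff_eq_mul.mp h, mul_assoc,
        ← mul_assoc X.u, X.zc, ← mul_assoc, ← mul_assoc, X.z2, one_mul]
    have hu : X.u ∈ X.E := le_ext2 X.u_mem
    rcases X.hA _ h1 (by rw [mul_assoc, hy, ← mul_assoc, X.ub, mul_assoc]) with h2 | h2
    · exact Or.inl ((mul_mem_cancel_left hu).mp (X.W_le_E h2))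
    · refine Or.inr ((mul_mem_cancel_left (le_ext2 (X.normal.conj_mem _ X.u_mem X.a))).mp ?_)
      rw [mul_assoc, mul_assoc, inv_mul_cancel_left]
      exact X.W_le_E h2

theorem mem_E' {y : S} (hT : y ∈ X.T) (hy : y * X.b = X.b * y)
    (h : X.a * y * X.a⁻¹ * y⁻¹ = 1 ∨ X.a * y * X.a⁻¹ * y⁻¹ = X.z) : y ∈ X.E :=
  (X.mem_E hy h).resolve_right fun h => X.aT ((mul_mem_cancel_right hT).mp (X.E_le_T h))

theorem comm_mem_T (x y : S) : x * y * x⁻¹ * y⁻¹ ∈ X.T :=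
  comm_mem_of_sq (H := ⊤) (fun g _ => X.sq_mem_T g) (mem_top x) (mem_top y)

theorem W_le_A : X.W ≤ centralizer {X.a} ⊓ centralizer {X.b} := fun x hx => by
  have h1 : X.z ∈ centralizer {X.a} ⊓ centralizer {X.b} :=
    ⟨mem_C.mpr (X.zc _).symm, mem_C.mpr (X.zc _).symm⟩
  have h2 : X.b ∈ centralizer {X.a} ⊓ centralizer {X.b} := ⟨mem_C.mpr X.ab.symm, mem_C.mpr rfl⟩
  rcases X.mem_W.mp hx with rfl | rfl | rfl | rfl
  exacts [one_mem _, h1, h2, mul_mem h1 h2]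

theorem sq_A : ∀ x ∈ centralizer {X.a} ⊓ centralizer {X.b}, x * x = 1 := fun x hx => by
  rcases X.hA x (mem_C.mp hx.1) (mem_C.mp hx.2) with h | h
  · exact kleinFour_mul_self X.isKleinFour_W h
  · have := kleinFour_mul_self X.isKleinFour_W h
    rwa [mul_assoc, ← mul_assoc x, mem_C.mp hx.1, ← mul_assoc, ← mul_assoc, X.a2, one_mul] at this

variable [Finite S] [hS : Fact (IsPGroup 2 S)]

theorem lg_A : lg (centralizer {X.a} ⊓ centralizer {X.b}) = 3 := by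
  have h1 := lg_lt' X.W_le_A ⟨mem_C.mpr rfl, mem_C.mpr X.ab⟩
    fun h => X.aT (X.E_le_T (X.W_le_E h))
  have h2 := (lg_mono (H := centralizer {X.a} ⊓ centralizer {X.b})
    (K := ext2 X.W X.a (X.a2 ▸ one_mem _) fun m hm => by
      rwa [← mem_C.mp (X.W_le_A hm).1, mul_inv_cancel_right])
    fun x hx => X.hA x (mem_C.mp hx.1) (mem_C.mp hx.2)).trans lg_ext2_le
  have h3 := lg_of_isKleinFour X.isKleinFour_W
  omega

section
variable {f : S} (fb : f * X.b = X.b * f) (af : X.a * f * X.a⁻¹ * f⁻¹ = X.b)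
include fb af

omit [Finite S] hS in
theorem W_surj : ∀ w ∈ X.W, ∃ l ∈ centralizer {X.b}, w = X.a * l * X.a⁻¹ * l⁻¹ := fun w hw => by
  rcases X.mem_W.mp hw with rfl | rfl | rfl | rfl
  · exact ⟨1, one_mem _, by group⟩
  · exact ⟨_, mem_C.mpr X.ub, X.au.symm⟩
  · exact ⟨_, mem_C.mpr fb, af.symm⟩
  · refine ⟨_, mul_mem (mem_C.mpr fb) (mem_C.mpr X.ub), ?_⟩
    calc _ = X.b * (f * X.z * f⁻¹) := by rw [X.conj_z, X.zc]
      _ = _ := by rw [← af, ← X.au]; group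

theorem comm_mem_W (hC : lg (centralizer {X.b}) ≤ 5) {y : S} (hy : y * X.b = X.b * y) :
    X.a * y * X.a⁻¹ * y⁻¹ ∈ X.W :=
  comm_mem_of_lg (X.W_surj fb af) (by rw [X.lg_A, lg_of_isKleinFour X.isKleinFour_W]; exact hC)
    (mem_C.mpr hy)

theorem grp_surj (hW : ¬ ∀ g, g * X.b * g⁻¹ = X.b ∨ g * X.b * g⁻¹ = X.b * X.z) :
    ∀ x ∈ X.grp, ∃ g, x = X.b * g * X.b⁻¹ * g⁻¹ := by
  have hZ := normal_zpowers_of_central X.zc
  let N := (centralizer {(X.b : S ⧸ zpowers X.z)}).comap (QuotientGroup.mk' _)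
  have hN : ∀ g, g ∈ N ↔ X.b * g * X.b⁻¹ * g⁻¹ = 1 ∨ X.b * g * X.b⁻¹ * g⁻¹ = X.z := fun g =>
    (mk_mem_C_iff _).trans (mem_zpowers_of_sq X.z2)
  have hb := inv_eq_of_mul_eq_one_right X.b2
  obtain ⟨g, hg, hg'⟩ := exists_normalizer (N := N) fun h => hW fun g => by
    have h1 : g * X.b * g⁻¹ = X.b * (X.b * g * X.b⁻¹ * g⁻¹) := by
      rw [← mul_assoc, ← mul_assoc, ← mul_assoc, X.b2, one_mul, hb]
    rcases (hN g).mp (h ▸ mem_top g) with h2 | h2 <;> rw [h1, h2]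
    exacts [Or.inl (mul_one _), Or.inr rfl]
  have h1 : ∀ n ∈ N, n * (g * X.b * g⁻¹) * n⁻¹ * (g * X.b * g⁻¹)⁻¹ ∈ zpowers X.z := fun n hn => by
    have := (mk_mem_C_iff _).mp ((hg' (g⁻¹ * n * g)).mpr (by simpa [mul_assoc] using hn))
    simpa [mul_assoc] using inv_mem (hZ.conj_mem _ this g)
  have haN : X.a ∈ N := (hN _).mpr (Or.inl (by rw [← X.ab]; group))
  have h2 : X.a * f * X.a⁻¹ * f⁻¹ ∈ centralizer {g * X.b * g⁻¹} := comm_mem_of_sq (H := N)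
    (fun n hn => by
    refine mem_C.mpr (mul_inv_eq_iff_eq_mul.mp ?_)
    have e1 := h1 n hn
    generalize g * X.b * g⁻¹ = b' at e1
    obtain ⟨c, hc⟩ : ∃ c, c = n * b' * n⁻¹ * b'⁻¹ := ⟨_, rfl⟩
    calc _ = n * (c * b') * n⁻¹ := by rw [hc]; group
      _ = n * c * n⁻¹ * c * b' := by rw [hc]; group
      _ = b' := by
        rcases (mem_zpowers_of_sq X.z2).mp (hc ▸ e1) with rfl | rfl
        · group
        · rw [X.conj_z, X.z2, one_mul]) haN ((hN _).mpr (Or.inl (by rw [← fb]; group)))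
  rw [af] at h2
  have h3 : X.b * g * X.b⁻¹ * g⁻¹ ∈ X.grp := by
    have := (X.mem_E' (X.T_normal.conj_mem _ X.bT g) (mem_C.mp h2).symm
      ((mem_zpowers_of_sq X.z2).mp (h1 _ haN))).resolve_left fun h =>
        X.bU (by simpa [mul_assoc] using X.normal.conj_mem _ h g⁻¹)
    rwa [hb, mul_assoc, mul_assoc, ← mul_assoc g]
  have h4 : X.b * (X.a * g) * X.b⁻¹ * (X.a * g)⁻¹ = X.z * (X.b * g * X.b⁻¹ * g⁻¹) := by
    have := (X.comm_mem X.a h3).resolve_left fun h =>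
      hg ((hN g).mpr (X.eq_of_commute X.aT h3 (mul_inv_eq_one.mp h)))
    rw [← mul_inv_eq_iff_eq_mul.mp this, ← mul_assoc X.b, ← X.ab]
    group
  have h5 : X.z = X.b * (g⁻¹ * (X.a * g)) * X.b⁻¹ * (g⁻¹ * (X.a * g))⁻¹ := by
    calc _ = g⁻¹ * ((X.b * g * X.b⁻¹ * g⁻¹)⁻¹ * X.z * (X.b * g * X.b⁻¹ * g⁻¹)⁻¹⁻¹) * g⁻¹⁻¹ := by
          rw [X.conj_z, X.conj_z]
      _ = _ := by rw [inv_inv, mul_assoc _ X.z, ← h4]; group
  intro x hx
  have h6 := fun h => hg ((hN g).mpr h)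
  rcases X.mem_grp.mp h3 with h | h | h | h
  · exact absurd (Or.inl h) h6
  · exact absurd (Or.inr h) h6
  all_goals rcases X.mem_grp.mp hx with rfl | rfl | rfl | rfl
  · exact ⟨1, by group⟩
  · exact ⟨_, h5⟩
  · exact ⟨_, h.symm⟩
  · exact ⟨_, by rw [h4, h]⟩
  · exact ⟨1, by group⟩
  · exact ⟨_, h5⟩
  · exact ⟨_, by rw [h4, h, ← mul_assoc, X.z2, one_mul]⟩
  · exact ⟨_, h.symm⟩

theorem lg_quot (hC : lg (centralizer {X.b}) ≤ 5) : haveI := X.normal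
    lg (centralizer {(X.a : S ⧸ X.grp)} ⊓ centralizer {(X.b : S ⧸ X.grp)}) ≤ 3 := by
  have := X.normal
  have h1 := lg_comap_mk X.grp
    (centralizer {(X.a : S ⧸ X.grp)} ⊓ centralizer {(X.b : S ⧸ X.grp)})
  have h2 : ∀ l ∈ (centralizer {(X.a : S ⧸ X.grp)} ⊓ centralizer {(X.b : S ⧸ X.grp)}).comap
      (QuotientGroup.mk' _), X.a * l * X.a⁻¹ * l⁻¹ ∈ X.grp ∧ X.b * l * X.b⁻¹ * l⁻¹ ∈ X.grp :=
    fun l hl => ⟨(mk_mem_C_iff _).mp hl.1, (mk_mem_C_iff _).mp hl.2⟩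
  generalize comap (QuotientGroup.mk' X.grp) _ = D at h1 h2
  have h3 := lg_le_of_comm_mem (L := D) (W := zpowers X.z) (x := X.b) fun l hl => by
    refine (mem_zpowers_of_sq X.z2).mpr (X.eq_of_commute X.aT (h2 l hl).2 ?_)
    obtain ⟨c, hc⟩ : ∃ c, c = X.a * l * X.a⁻¹ * l⁻¹ := ⟨_, rfl⟩
    have hc' : c ∈ X.grp := hc ▸ (h2 l hl).1
    calc _ = X.a * X.b * X.a⁻¹ * (c * l) * (X.a * X.b * X.a⁻¹)⁻¹ * (c * l)⁻¹ := by rw [hc]; group
      _ = c * (X.b * l * X.b⁻¹ * l⁻¹) * c⁻¹ := by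
          rw [X.ab, mul_inv_cancel_right, ← mul_assoc, (X.commute X.bT hc').eq]; group
      _ = _ := by rw [kleinFour_comm X.isKleinFour hc' (h2 l hl).2, mul_inv_cancel_right]
  have h4 := lg_le_of_comm_mem (L := centralizer {X.b} ⊓ D) (W := zpowers X.z) (x := X.a)
    fun l hl => (mem_zpowers_of_sq X.z2).mpr (X.eq_of_mem_W X.z_mem X.bU
      (X.comm_mem_W fb af hC (mem_C.mp hl.1)) (h2 l hl.2).1)
  have h5 : lg (centralizer {X.a} ⊓ (centralizer {X.b} ⊓ D)) ≤ 3 :=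
    (lg_mono (inf_le_inf_left _ inf_le_left)).trans X.lg_A.le
  have h6 := lg_zpowers X.z2 X.z1
  have h7 := X.lg_grp
  omega

end

end Cfg

section
variable {S : Type*} [Group S] [Finite S] [hS : Fact (IsPGroup 2 S)]

theorem exists_cfg {a b f : S} (a2 : a * a = 1) (b2 : b * b = 1) (b1 : b ≠ 1) (ab : a * b = b * a)
    (fb : f * b = b * f) (af : a * f * a⁻¹ * f⁻¹ = b)
    (hA : lg (centralizer {a} ⊓ centralizer {b}) ≤ 3) (hb : ¬ ∀ g, g * b = b * g) :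
    (∃ z, z * z = 1 ∧ (∀ g, g * z = z * g) ∧ ∀ g, g * b * g⁻¹ = b ∨ g * b * g⁻¹ = b * z) ∨
      ∃ X : Cfg S, X.a = a ∧ X.b = b ∧ ¬ ∀ g, g * b * g⁻¹ = b ∨ g * b * g⁻¹ = b * X.z := by
  have key : ∀ z (z2 : z * z = 1) (zc : ∀ g, g * z = z * g), z ≠ 1 →
      (∀ w ∈ four z b z2 b2 (zc b).symm, f * w = w * f) ∧
      lg (centralizer {a} ⊓ centralizer {b}) = 3 ∧ (∀ x ∈ centralizer {a} ⊓ centralizer {b},
        x ∈ four z b z2 b2 (zc b).symm ∨ a * x ∈ four z b z2 b2 (zc b).symm) ∧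
        ∀ x ∈ centralizer {a} ⊓ centralizer {b}, x * x = 1 := by
    intro z z2 zc z1
    have hW := isKleinFour_four z2 b2 (zc b).symm z1 b1 fun h => hb (h ▸ zc)
    have h0 : ∀ g, g * b = b * g → ∀ w ∈ four z b z2 b2 (zc b).symm, g * w = w * g :=
      fun g hg w hw => by
        rcases mem_four.mp hw with rfl | rfl | rfl | rfl
        exacts [Commute.one_right g, zc g, hg, (show Commute g z from zc g).mul_right hg]
    have h1 : four z b z2 b2 (zc b).symm ≤ centralizer {a} ⊓ centralizer {b} := fun w hw =>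
      ⟨mem_C.mpr (h0 a ab w hw).symm, mem_C.mpr (h0 b rfl w hw).symm⟩
    have ha : a ∈ centralizer {a} ⊓ centralizer {b} := ⟨mem_C.mpr rfl, mem_C.mpr ab⟩
    have ha' : a ∉ four z b z2 b2 (zc b).symm := fun h => b1 (by rw [← af, ← h0 f fb a h]; group)
    have h2 := lg_lt' h1 ha ha'
    have h3 := lg_of_isKleinFour hW
    have h4 : ∀ x ∈ centralizer {a} ⊓ centralizer {b},
        x ∈ four z b z2 b2 (zc b).symm ∨ a * x ∈ four z b z2 b2 (zc b).symm := fun x hx =>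
      (em _).imp_right fun h => mul_mem_of_lg h1 (by omega) ha hx ha' h
    refine ⟨h0 f fb, by omega, h4, fun x hx => ?_⟩
    rcases h4 x hx with h | h
    · exact kleinFour_mul_self hW h
    · have := kleinFour_mul_self hW h
      rwa [mul_assoc, ← mul_assoc x, mem_C.mp hx.1, ← mul_assoc, ← mul_assoc, a2, one_mul] at this
  obtain ⟨z, -, z2, z1, zc⟩ := exists_central_mem (M := (⊤ : Subgroup S))
    fun h => b1 (mem_bot.mp (h ▸ mem_top b))
  obtain ⟨-, h1, -, h2⟩ := key z z2 zc z1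
  obtain ⟨U⟩ := exists_NF h2 h1.ge
  by_cases hW : ∀ g, g * b * g⁻¹ = b ∨ g * b * g⁻¹ = b * U.z
  · exact Or.inl ⟨U.z, U.z2, U.zc, hW⟩
  obtain ⟨h3, -, h4, -⟩ := key U.z U.z2 U.zc U.z1
  have bT : b ∈ U.T :=
    af ▸ comm_mem_of_sq (H := ⊤) (fun g _ => U.sq_mem_T g) (mem_top a) (mem_top f)
  have bU : b ∉ U.grp := fun h => hW fun g => (U.comm_mem g h).imp mul_inv_eq_one.mp
    fun h => by rw [U.zc b]; exact mul_inv_eq_iff_eq_mul.mp h
  refine Or.inr ⟨⟨U, a, b, a2, b2, ab, fun aT => bU ?_, bT, bU,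
    fun x h h' => h4 x ⟨mem_C.mpr h, mem_C.mpr h'⟩⟩, rfl, rfl, hW⟩
  rcases h4 U.u ⟨mem_C.mpr (U.mem_T.mp aT).symm, mem_C.mpr (U.mem_T.mp bT).symm⟩ with h | h
  · rcases mem_four.mp h with h | h | h | h
    · exact absurd h U.u1
    · exact absurd h U.uz
    · exact h ▸ U.u_mem
    · exact (mul_mem_cancel_left U.z_mem).mp (h ▸ U.u_mem)
  · have e1 := U.normal.conj_mem _ (mul_mem (inv_mem U.u_mem)
      (U.normal.conj_mem _ U.u_mem f)) (a * U.u)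
    rwa [show a * U.u * (U.u⁻¹ * (f * U.u * f⁻¹)) * (a * U.u)⁻¹ =
      a * f * a⁻¹ * (a * U.u * f⁻¹ * (a * U.u)⁻¹) by group,
      (show Commute f (a * U.u) from h3 _ h).inv_left.symm.eq, mul_inv_cancel_right, af] at e1

end

theorem exists_comm_subgroup (n : ℕ) : ∀ (S : Type*) [Group S] [Finite S] [Fact (IsPGroup 2 S)]
    (a b f : S), Nat.card S = n → a * a = 1 → b * b = 1 → b ≠ 1 → a * b = b * a → f * b = b * f →
    a * f * a⁻¹ * f⁻¹ = b → lg (centralizer {b}) ≤ 5 →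
    lg (centralizer {a} ⊓ centralizer {b}) ≤ 3 → ∃ R : Subgroup S, R.Normal ∧
      (∀ g, b * g * b⁻¹ * g⁻¹ ∈ R) ∧ ∀ r ∈ R, ∃ g, r = b * g * b⁻¹ * g⁻¹ := by
  induction n using Nat.strong_induction_on with
  | _ n ih =>
  intro S _ _ hS a b f hn a2 b2 b1 ab fb af hC hA
  by_cases hb : ∀ g, g * b = b * g
  · refine ⟨⊥, inferInstance, fun g => mem_bot.mpr (by rw [← hb]; group), fun r hr => ⟨1, ?_⟩⟩
    rw [mem_bot.mp hr]; group
  have hb' := inv_eq_of_mul_eq_one_right b2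
  rcases exists_cfg a2 b2 b1 ab fb af hA hb with ⟨z, z2, zc, h⟩ | ⟨X, rfl, rfl, hW⟩
  · have h1 : ∀ g, b * g * b⁻¹ * g⁻¹ = b * (g * b * g⁻¹) := fun g => by rw [hb']; group
    refine ⟨zpowers z, normal_zpowers_of_central zc, fun g => (mem_zpowers_of_sq z2).mpr ?_,
      fun r hr => ?_⟩
    · rcases h g with h2 | h2 <;> rw [h1, h2]
      exacts [Or.inl b2, Or.inr (by rw [← mul_assoc, b2, one_mul])]
    · rcases (mem_zpowers_of_sq z2).mp hr with rfl | rfl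
      · exact ⟨1, by group⟩
      · push Not at hb
        obtain ⟨g, hg⟩ := hb
        exact ⟨g, by rw [h1, (h g).resolve_left fun h2 => hg (mul_inv_eq_iff_eq_mul.mp h2),
          ← mul_assoc, b2, one_mul]⟩
  have hN := X.normal
  have : Fact (IsPGroup 2 (S ⧸ X.grp)) := ⟨hS.out.to_quotient _⟩
  have h1 := lg_comap_mk X.grp ⊤
  rw [comap_top, X.lg_grp] at h1
  obtain ⟨R, hR, h2, h3⟩ := ih (Nat.card (S ⧸ X.grp)) (by
    rw [← hn, ← card_top, ← card_top (G := S), card_eq_lg, card_eq_lg]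
    exact Nat.pow_lt_pow_right (by norm_num) (by omega)) (S ⧸ X.grp) X.a X.b f rfl
    (congrArg _ a2) (congrArg _ b2) (fun h => X.bU ((QuotientGroup.eq_one_iff _).mp h))
    (congrArg _ ab) (congrArg _ fb) (congrArg _ af) ((lg_centralizer_mk_le _ _).trans hC)
    (X.lg_quot fb af hC)
  refine ⟨R.comap (QuotientGroup.mk' _), inferInstance, fun g => h2 g, fun r hr => ?_⟩
  obtain ⟨g, hg⟩ := h3 _ hr
  obtain ⟨g, rfl⟩ := QuotientGroup.mk_surjective g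
  obtain ⟨p, hp⟩ := X.grp_surj fb af hW _ (hN.conj_mem _ (QuotientGroup.eq.mp hg.symm) g⁻¹)
  refine ⟨g * p, ?_⟩
  calc _ = X.b * g * X.b⁻¹ * g⁻¹ * (g * (g⁻¹ * ((X.b * g * X.b⁻¹ * g⁻¹)⁻¹ * r) * g⁻¹⁻¹) * g⁻¹) := by
        group
    _ = _ := by rw [hp]; group

variable {S : Type*} [Group S] [Finite S] [hS : Fact (IsPGroup 2 S)]

theorem Cfg.sec_of_comm (X : Cfg S) {f : S} (fb : f * X.b = X.b * f)
    (af : X.a * f * X.a⁻¹ * f⁻¹ = X.b) (hC : lg (centralizer {X.b}) ≤ 5)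
    (hW : ¬ ∀ g, g * X.b * g⁻¹ = X.b ∨ g * X.b * g⁻¹ = X.b * X.z) : SectionalPRankLE 2 4 S := by
  obtain ⟨R, hR, h1, h2⟩ := exists_comm_subgroup _ S X.a X.b f rfl X.a2 X.b2 X.b1 X.ab fb af hC
    X.lg_A.le
  let D : Inv S := ⟨R, ⊤, X.b, X.b2, X.b1, fun g _ => h1 g,
    fun r hr => (h2 r hr).imp fun g hg => ⟨mem_top g, hg⟩, le_top⟩
  have hbR : X.b ∉ R := D.b_notMem
  have hUR : X.grp ≤ R := fun x hx => by
    obtain ⟨g, rfl⟩ := X.grp_surj fb af hW x hx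
    exact h1 g
  have h3 := lg_ge_of_surj (X.W_surj fb af)
  rw [X.lg_A, lg_of_isKleinFour X.isKleinFour_W] at h3
  refine D.sec_two rfl (le_antisymm hC h3) (le_antisymm ?_ ?_) fun w hw hw1 hw2 => ?_
  · change lg (centralizer {X.b} ⊓ R) ≤ 2
    have h4 := lg_le_of_comm_mem (L := centralizer {X.b} ⊓ R) (W := zpowers X.z) (x := X.a)
      fun l hl => (mem_zpowers_of_sq X.z2).mpr (X.eq_of_mem_W (hUR X.z_mem) hbR
        (X.comm_mem_W fb af hC (mem_C.mp hl.1))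
        (mul_mem (hR.conj_mem _ hl.2 _) (inv_mem (mem_inf.mp hl).2)))
    have h5 : lg (centralizer {X.a} ⊓ (centralizer {X.b} ⊓ R)) ≤ lg (zpowers X.z) :=
      lg_mono fun x hx => (mem_zpowers_of_sq X.z2).mpr (X.eq_of_mem_W (hUR X.z_mem) hbR
        (X.mem_W_of (by obtain ⟨g, hg⟩ := h2 x hx.2.2; exact hg ▸ X.comm_mem_T _ _)
          (mem_C.mp hx.1) (mem_C.mp hx.2.1)) hx.2.2)
    have h6 := lg_zpowers X.z2 X.z1
    omega
  · rw [← X.lg_grp]
    exact lg_mono fun x hx => ⟨mem_C.mpr (X.commute X.bT hx).symm, hUR hx⟩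
  change ∃ y ∈ centralizer {X.b}, X.b * _ ∈ R
  have h4 : X.a * w * X.a⁻¹ * w⁻¹ = 1 ∨ X.a * w * X.a⁻¹ * w⁻¹ = X.z →
      X.b * (f * w * f⁻¹ * w⁻¹) ∈ R := fun h => by
    have h5 := (X.mem_E (mem_C.mp hw) h).resolve_left fun h5 =>
      h5.elim (fun h6 => hw1 (hUR h6)) fun h6 => hw2 (hUR h6)
    have h6 : f * (X.a * w) * f⁻¹ * (X.a * w)⁻¹ ∈ R := by
      rcases h5 with h5 | h5
      · exact mul_mem (hR.conj_mem _ (hUR h5) f) (inv_mem (hUR h5))
      · have := hR.conj_mem _ (mul_mem (hR.conj_mem _ (hUR h5) f) (inv_mem (hUR h5))) X.b⁻¹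
        rwa [← mul_assoc f, fb, show X.b⁻¹ * (X.b * f * (X.a * w) * f⁻¹ * (X.b * (X.a * w))⁻¹) *
          X.b⁻¹⁻¹ = f * (X.a * w) * f⁻¹ * (X.a * w)⁻¹ by group] at this
    have h7 := hR.conj_mem _ h6 X.a⁻¹
    rwa [show X.a⁻¹ * (f * (X.a * w) * f⁻¹ * (X.a * w)⁻¹) * X.a⁻¹⁻¹ =
      X.a⁻¹ * (X.a * f * X.a⁻¹ * f⁻¹)⁻¹ * X.a * (f * w * f⁻¹ * w⁻¹) by group, af,
      inv_eq_of_mul_eq_one_right X.b2, mul_assoc _ X.b, ← X.ab, inv_mul_cancel_left] at h7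
  rcases X.mem_W.mp (X.comm_mem_W fb af hC (mem_C.mp hw)) with h | h | h | h
  · exact ⟨f, mem_C.mpr fb, h4 (Or.inl h)⟩
  · exact ⟨f, mem_C.mpr fb, h4 (Or.inr h)⟩
  · exact ⟨X.a, mem_C.mpr X.ab, by rw [h, X.b2]; exact one_mem _⟩
  · exact ⟨X.a, mem_C.mpr X.ab, by
      rw [h, ← X.zc, ← mul_assoc, X.b2, one_mul]; exact hUR X.z_mem⟩

theorem Cfg.sec (X : Cfg S) : SectionalPRankLE 2 4 S := by
  have ha : X.a ∈ centralizer {X.b} := mem_C.mpr X.ab
  by_cases hW : ∀ g, g * X.b * g⁻¹ = X.b ∨ g * X.b * g⁻¹ = X.b * X.z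
  · exact sec_of_NF ⟨X.z, X.b, X.z2, X.z1, X.zc, X.b2, X.b1, fun h => X.bU (h ▸ X.z_mem), hW⟩ X.a2
      ha (fun h => X.aT (X.E_le_T (X.W_le_E h))) fun x hx h => X.hA x h (mem_C.mp hx)
  obtain ⟨h1, h2⟩ := commutator_surj ha X.sq_A X.lg_A
  let D : Inv S := ⟨⁅centralizer {X.b}, centralizer {X.b}⁆, centralizer {X.b}, X.a, X.a2,
    fun h => X.aT (h ▸ one_mem _), fun g hg => commutator_mem_commutator ha hg, h2,
    commutator_le_self _⟩
  have hz : X.z ∈ D.R := X.au ▸ D.mem _ (mem_C.mpr X.ub)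
  have hT : D.R ≤ X.T := fun r hr => by
    obtain ⟨g, -, rfl⟩ := h2 r hr
    exact X.comm_mem_T _ _
  have h3 : ∀ r ∈ D.R, r * r = 1 → r ∈ X.W := fun r hr h =>
    X.mem_W_of (hT hr) (mem_C.mp ((D.mem_C_iff hr).mpr h)) (mem_C.mp (D.RT hr))
  have h4 : ∀ r ∈ D.R, r * r ≠ X.z := fun r hr h => by
    have e1 : D.φ r⁻¹ = X.z := by rw [D.φ_R (inv_mem hr), inv_inv, h]
    have e2 : r⁻¹ * r⁻¹ = 1 := by
      rcases X.mem_E' (hT (inv_mem hr)) (mem_C.mp (D.RT (inv_mem hr))) (Or.inr e1) with e2 | e2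
      · exact X.sq e2
      · have := X.sq e2
        rwa [mul_assoc, ← mul_assoc r⁻¹, mem_C.mp (D.RT (inv_mem hr)), ← mul_assoc, ← mul_assoc,
          X.b2, one_mul] at this
    rw [← mul_inv_rev, h, inv_eq_one] at e2
    exact X.z1 e2
  have h5 : D.R ≤ X.W := fun r hr => by
    by_contra hr'
    obtain ⟨k, e1, e2⟩ := exists_sq_mem hr'
    have hr2 := pow_mem hr k
    generalize r ^ k = s at e1 e2 hr2
    obtain ⟨n, hn, hn'⟩ := exists_normalizer (N := centralizer {X.b}) fun h =>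
      hW fun g => Or.inl (mul_inv_eq_iff_eq_mul.mpr (mem_C.mp (h ▸ mem_top g)))
    have hnR : n * s * n⁻¹ ∈ D.R := by
      have : (D.R).map (MulAut.conj n).toMonoidHom ≤ D.R := by
        rw [map_commutator]
        have : (centralizer {X.b}).map (MulAut.conj n).toMonoidHom ≤ centralizer {X.b} := by
          rintro _ ⟨y, hy, rfl⟩
          exact (hn' y).mp hy
        exact commutator_mono this this
      exact this ⟨s, hr2, rfl⟩
    have e3 : n * s * n⁻¹ * (n * s * n⁻¹) ∈ X.W := h3 _ (mul_mem hnR hnR) (by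
      rw [conj_mul, conj_mul, kleinFour_mul_self X.isKleinFour_W e2]; group)
    have e4 : s * s ≠ 1 := fun h => e1 (h3 s hr2 h)
    have e5 : s * (n * s * n⁻¹) * (s * (n * s * n⁻¹)) = s * s * (n * (s * s) * n⁻¹) := by
      rw [(D.comm hr2 hnR).symm.mul_mul_mul_comm, conj_mul]
    have e6 := h4 _ (mul_mem hr2 hnR)
    have e7 := h4 _ hnR
    rw [conj_mul] at e3 e7
    rw [e5] at e6
    have e8 : n * X.b * n⁻¹ ≠ X.b := fun h => hn (mem_C.mpr (mul_inv_eq_iff_eq_mul.mp h))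
    rcases X.mem_W.mp e2 with h | h | h | h
    · exact e4 h
    · exact h4 s hr2 h
    · rcases X.mem_W.mp e3 with h' | h' | h' | h'
      · exact e4 (by simpa using h')
      · exact e7 h'
      · exact e8 (h ▸ h')
      · exact e6 (by rw [h', h, ← X.zc, ← mul_assoc, X.b2, one_mul])
    · rcases X.mem_W.mp e3 with h' | h' | h' | h'
      · exact e4 (by simpa using h')
      · exact e7 h'
      · exact e6 (by rw [h', h, mul_assoc, X.b2, mul_one])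
      · exact e8 (by rwa [h, ← conj_mul, X.conj_z, mul_right_inj] at h')
  by_cases hb : X.b ∈ D.R
  · obtain ⟨f, hf, h6⟩ := h2 _ hb
    have h7 := lg_mono h5
    rw [lg_of_isKleinFour X.isKleinFour_W] at h7
    exact X.sec_of_comm (mem_C.mp hf) h6.symm (h1.trans_le (Nat.add_le_add_right h7 3)) hW
  · refine sec_of_NF X.toNF X.b2 X.bT X.bU fun x hx h => X.mem_E' hx h ?_
    have := D.mem x (mem_C.mpr h)
    exact X.eq_of_mem_W hz hb (h5 this) this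

/-- Harada's theorem. -/
theorem harada {A : Subgroup S} (hA : ∀ a ∈ A, a * a = 1) (h3 : lg A = 3)
    (hC : ∀ x, (∀ a ∈ A, x * a = a * x) → x ∈ A) : SectionalPRankLE 2 4 S := by
  obtain ⟨U⟩ := exists_NF hA h3.ge
  have hz : U.z ∈ A := hC _ fun a _ => (U.zc a).symm
  have gen : ∀ (v b : S) (v2 : v * v = 1), v ∈ A → b ∈ A → v ≠ 1 → U.z ≠ v →
      b ∉ four U.z v U.z2 v2 (U.zc v).symm → ∀ x, x * b = b * x → x * v = v * x →
      x ∈ four U.z v U.z2 v2 (U.zc v).symm ∨ b * x ∈ four U.z v U.z2 v2 (U.zc v).symm := by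
    intro v b v2 hv hb v1 hzv hb' x h1 h2
    have e1 : four U.z v U.z2 v2 (U.zc v).symm ≤ A := fun w hw => by
      rcases mem_four.mp hw with rfl | rfl | rfl | rfl
      exacts [one_mem _, hz, hv, mul_mem hz hv]
    have e2 := lg_of_isKleinFour (isKleinFour_four U.z2 v2 (U.zc v).symm U.z1 v1 hzv)
    have e3 : ∀ x ∈ A, x ∈ four U.z v U.z2 v2 (U.zc v).symm ∨
        b * x ∈ four U.z v U.z2 v2 (U.zc v).symm := fun x hx =>
      (em _).imp_right fun h => mul_mem_of_lg e1 (by omega) hb hx hb' h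
    have e4 : ∀ w ∈ four U.z v U.z2 v2 (U.zc v).symm, Commute x w := fun w hw => by
      rcases mem_four.mp hw with rfl | rfl | rfl | rfl
      exacts [Commute.one_right x, U.zc x, h2, (show Commute x U.z from U.zc x).mul_right h2]
    refine e3 x (hC x fun a ha => (e3 a ha).elim (e4 a) fun h => ?_)
    simpa using ((show Commute x b from h1).inv_right.mul_right (e4 _ h)).eq
  by_cases hu : U.u ∈ A
  · obtain ⟨b, hb, hb'⟩ := exists_notMem_of_lg (H := U.grp) (K := A) (by rw [U.lg_grp]; omega)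
    exact sec_of_NF U (hA b hb) (U.mem_T.mpr (comm_of_sq hA hb hu)) hb'
      fun x hx h => gen U.u b U.u2 hu hb U.u1 U.uz.symm hb' x h (U.mem_T.mp hx)
  obtain ⟨a, ha, haT⟩ : ∃ a ∈ A, a ∉ U.T := by
    by_contra h
    push Not at h
    exact hu (hC _ fun a ha => (U.mem_T.mp (h a ha)).symm)
  have h1 := lg_le_succ (M := U.T) (K := A) fun x _ y _ => U.mul_mem_T
  obtain ⟨b, hb, hb'⟩ := exists_notMem_of_lg (H := zpowers U.z) (K := U.T ⊓ A) (by
    rw [lg_zpowers U.z2 U.z1]; omega)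
  obtain ⟨hbT, hb⟩ := mem_inf.mp hb
  have b1 : b ≠ 1 := fun h => hb' (h ▸ one_mem _)
  have bz : U.z ≠ b := fun h => hb' (h ▸ mem_zpowers _)
  refine Cfg.sec ⟨U, a, b, hA a ha, hA b hb, comm_of_sq hA ha hb, haT, hbT, fun h => ?_,
    gen b a (hA b hb) hb ha b1 bz fun h => haT ?_⟩
  · rcases U.mem_grp.mp h with h | h | h | h
    exacts [b1 h, bz h.symm, hu (h ▸ hb), hu ((mul_mem_cancel_left hz).mp (h ▸ hb))]
  · rcases mem_four.mp h with rfl | rfl | rfl | rfl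
    exacts [one_mem _, U.grp_le U.z_mem, hbT, mul_mem (U.grp_le U.z_mem) hbT]

end Cfsg.Agent.TwoGrp
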