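import Mathlib
import Cfsg.Agent.Lib.TwoGrp.Har5
import Cfsg.Agent.Lib.TwoGrp.Quat

/-!
# A self-centralizing `Q₈ * Q₈` forces sectional 2-rank at most four
-/

set_option autoImplicit false

namespace Cfsg.Agent.TwoGrp

open Subgroup QuaternionGroup

theorem exists_q8_gens {S : Type*} [Group S] {Q : Subgroup S} (e : Q ≃* QuaternionGroup 2) :
    ∃ i ∈ Q, ∃ j ∈ Q, i * i ≠ 1 ∧ j * j = i * i ∧ i * j = i * i * (j * i) ∧
      (∀ g ∈ Q, g * g = 1 ∨ g * g = i * i) ∧ (∀ g ∈ Q, g * g = 1 → g = 1 ∨ g = i * i) ∧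
      (∀ g ∈ Q, g * i = i * g → g * j = j * g → g = 1 ∨ g = i * i) ∧
      ∀ c, Commute c i → Commute c j → ∀ g ∈ Q, Commute c g := by
  let f : QuaternionGroup 2 →* S := Q.subtype.comp e.symm.toMonoidHom
  have hf : Function.Injective f := Q.subtype_injective.comp e.symm.injective
  have hs : ∀ g ∈ Q, ∃ q, f q = g := fun g hg => ⟨e ⟨g, hg⟩, by simp [f]⟩
  have h2 : f (a 1) * f (a 1) = f (a 2) := by rw [← map_mul]; rfl
  refine ⟨f (a 1), (e.symm _).2, f (xa 0), (e.symm _).2, ?_, ?_, ?_, fun g hg => ?_,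
    fun g hg => ?_, fun g hg => ?_, fun c hi hj g hg => ?_⟩
  · rw [h2, Ne, map_eq_one_iff f hf]; decide
  · rw [← map_mul, ← map_mul]; rfl
  · simp only [← map_mul]; rfl
  all_goals obtain ⟨q, rfl⟩ := hs g hg
  · simpa only [h2, ← map_mul, map_eq_one_iff f hf, hf.eq_iff] using q8_sq' q
  · simpa only [h2, ← map_mul, map_eq_one_iff f hf, hf.eq_iff] using q8_sq q
  · simpa only [h2, ← map_mul, map_eq_one_iff f hf, hf.eq_iff] using q8_central q
  · obtain ⟨k, rfl | rfl⟩ := q8_gen q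
    · rw [map_pow]; exact hi.pow_right _
    · rw [map_mul, map_pow]; exact hj.mul_right (hi.pow_right _)

variable {S : Type*} [Group S]

theorem swap_aux {z i k v x w : S} (z2 : z * z = 1) (z1 : z ≠ 1) (zc : ∀ g, g * z = z * g)
    (hi : i * i = z) (hik : Commute i k) (hv : v * v = 1) (hiv : i * v = z * (v * i))
    (hv' : Commute v (i * k)) (h2 : i * k * (i * k) = 1) (hw : x * i * x⁻¹ = i * w)
    (h : w ∈ four z (i * k) z2 h2 (zc _).symm ∨ v * w ∈ four z (i * k) z2 h2 (zc _).symm) :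
    (x * i * x⁻¹ = i ∨ x * i * x⁻¹ = z * i) ∨ x * i * x⁻¹ = k ∨ x * i * x⁻¹ = z * k := by
  rcases h with h | h
  · rw [hw]
    rcases mem_four.mp h with rfl | rfl | rfl | rfl
    · simp
    · simp [zc]
    · simp [← mul_assoc, hi]
    · right; left
      rw [← mul_assoc, zc, mul_assoc, ← mul_assoc i, hi, ← mul_assoc, z2, one_mul]
  · exfalso
    obtain ⟨y, rfl⟩ : ∃ y, w = v * y := ⟨v * w, by rw [← mul_assoc, hv, one_mul]⟩
    rw [← mul_assoc v v y, hv, one_mul] at h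
    have h0 : ∀ g, Commute g (i * k) → Commute g y := fun g hg => by
      rcases mem_four.mp h with rfl | rfl | rfl | rfl
      exacts [Commute.one_right g, zc g, hg, (show Commute g z from zc g).mul_right hg]
    have h1 : y * y = 1 := by
      rcases mem_four.mp h with rfl | rfl | rfl | rfl
      exacts [mul_one 1, z2, h2, by
        rw [(show Commute (i * k) z from zc _).mul_mul_mul_comm, z2, h2, mul_one]]
    have h3 : x * i * x⁻¹ * (x * i * x⁻¹) = z := by rw [conj_mul, hi, zc, mul_inv_cancel_right]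
    rw [hw, ← mul_assoc i v, ((h0 i ((Commute.refl i).mul_right hik)).mul_left
      (h0 v hv')).symm.mul_mul_mul_comm, h1, mul_one] at h3
    refine z1 (h3.symm.trans ?_)
    calc _ = z * (v * (i * i) * v) := by rw [hiv]; nth_rw 2 [← hiv]; group
      _ = 1 := by rw [hi, zc, mul_assoc, hv, mul_one, z2]

theorem swap_fix {z i v x : S} (zc : ∀ g, g * z = z * g)
    (hiv : i * v = z * (v * i)) (h : x * i * x⁻¹ = z * i) : Commute (v * x) i := by
  refine mul_inv_eq_iff_eq_mul.mp ?_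
  calc _ = v * (x * i * x⁻¹) * v⁻¹ := by group
    _ = z * (v * i) * v⁻¹ := by rw [h, ← mul_assoc v, zc, mul_assoc z]
    _ = i := by rw [← hiv, mul_inv_cancel_right]

variable [Finite S] [hS : Fact (IsPGroup 2 S)]

theorem exists_swap {Q : Subgroup S} {z i j k l : S} (z2 : z * z = 1) (z1 : z ≠ 1)
    (zc : ∀ g, g * z = z * g) (hi : i * i = z) (hj : j * j = z) (hk : k * k = z) (hl : l * l = z)
    (hij : i * j = z * (j * i)) (hkl : k * l = z * (l * k)) (ik : Commute i k) (il : Commute i l)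
    (jk : Commute j k) (jl : Commute j l) (iQ : i ∈ Q) (jQ : j ∈ Q) (kQ : k ∈ Q) (lQ : l ∈ Q)
    (hQ : lg Q = 5) (hsq : ∀ q ∈ Q, q * q ∈ zpowers z)
    (hC : ∀ c, Commute c i → Commute c j → Commute c k → Commute c l → c ∈ Q)
    (h : ¬ SectionalPRankLE 2 4 S) : ∃ x : S, (x * i * x⁻¹ = k ∨ x * i * x⁻¹ = z * k) ∧
      (x * j * x⁻¹ = l ∨ x * j * x⁻¹ = z * l) ∧ Commute x (i * k) ∧ Commute x (j * l) := by
  have hji : j * i = z * (i * j) := by rw [hij, ← mul_assoc, z2, one_mul]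
  have v2 : i * k * (i * k) = 1 := by rw [ik.symm.mul_mul_mul_comm, hi, hk, z2]
  have w2 : j * l * (j * l) = 1 := by rw [jl.symm.mul_mul_mul_comm, hj, hl, z2]
  have vw : Commute (i * k) (j * l) := by
    change _ = _
    rw [jk.symm.mul_mul_mul_comm, il.symm.mul_mul_mul_comm, hij, hkl,
      (show Commute (j * i) z from zc _).mul_mul_mul_comm, z2, one_mul]
  have iw : i * (j * l) = z * (j * l * i) := by
    rw [← mul_assoc, hij, mul_assoc, mul_assoc, il.eq, mul_assoc]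
  have jv : j * (i * k) = z * (i * k * j) := by
    rw [← mul_assoc, hji, mul_assoc, mul_assoc, jk.eq, mul_assoc]
  have iv : Commute i (i * k) := (Commute.refl i).mul_right ik
  have jw : Commute j (j * l) := (Commute.refl j).mul_right jl
  have hne : ∀ g y : S, g * y = z * (y * g) → ¬ Commute g y := fun g y h1 h2 =>
    z1 (by simpa [h2.eq] using h1)
  have zQ : z ∈ Q := hi ▸ mul_mem iQ iQ
  have hZ := lg_zpowers z2 z1
  let A := centralizer {j * l} ⊓ (centralizer {i * k} ⊓ Q)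
  have zA : z ∈ A := ⟨mem_C.mpr (zc _).symm, mem_C.mpr (zc _).symm, zQ⟩
  have vA : i * k ∈ A := ⟨mem_C.mpr vw, mem_C.mpr rfl, mul_mem iQ kQ⟩
  have wA : j * l ∈ A := ⟨mem_C.mpr rfl, mem_C.mpr vw.symm, mul_mem jQ lQ⟩
  have hs : ∀ (g y : S) (L : Subgroup S), g ∈ L → g * y = z * (y * g) →
      lg (centralizer {y} ⊓ L) + 1 ≤ lg L := fun g y L hg h1 =>
    lg_lt' inf_le_right hg fun h2 => hne g y h1 (mem_C.mp h2.1)
  have h1 := hs j _ Q jQ jv
  have h2 : lg A + 1 ≤ _ := hs i _ (centralizer {i * k} ⊓ Q) ⟨mem_C.mpr iv, iQ⟩ iw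
  have split : ∀ (v w g : S) (v2 : v * v = 1), v ∈ A → w ∈ A → Commute g v → (¬ Commute g w) →
      (∃ g', ¬ Commute g' v) → 3 ≤ lg A ∧ (∀ a ∈ A, a ∈ four z v z2 v2 (zc _).symm ∨
        w * a ∈ four z v z2 v2 (zc _).symm) ∧ (w * w = 1 → Commute w v → ∀ a ∈ A,
        Commute a w → a * a = 1) := by
    rintro v w g v2 hv hw h3 h4 ⟨g', h5⟩
    have e0 := isKleinFour_four z2 v2 (zc _).symm z1 (fun h => h5 (h ▸ Commute.one_right _))
      fun h => h5 (h ▸ zc _)
    have e1 : four z v z2 v2 (zc _).symm ≤ A := fun y hy => by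
      rcases mem_four.mp hy with rfl | rfl | rfl | rfl
      exacts [one_mem _, zA, hv, mul_mem zA hv]
    have e2 : w ∉ four z v z2 v2 (zc _).symm := fun hy => h4 (by
      rcases mem_four.mp hy with rfl | rfl | rfl | rfl
      exacts [Commute.one_right g, zc g, h3, (show Commute g z from zc g).mul_right h3])
    have e3 := lg_lt' e1 hw e2
    have e4 := lg_of_isKleinFour e0
    have e5 : ∀ a ∈ A, a ∈ four z v z2 v2 (zc _).symm ∨ w * a ∈ four z v z2 v2 (zc _).symm :=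
      fun a ha => (em _).imp_right fun h => mul_mem_of_lg e1 (by omega) hw ha e2 h
    refine ⟨by omega, e5, fun w2 _ a ha h6 => (e5 a ha).elim (kleinFour_mul_self e0) fun h7 => ?_⟩
    have := kleinFour_mul_self e0 h7
    rwa [h6.mul_mul_mul_comm, w2, one_mul] at this
  obtain ⟨h3, h4, h5⟩ := split _ _ i v2 vA wA iv (hne _ _ iw) ⟨j, hne _ _ jv⟩
  obtain ⟨-, h6, -⟩ := split _ _ j w2 wA vA jw (hne _ _ jv) ⟨i, hne _ _ iw⟩
  have hA : ∀ a ∈ A, a * a = 1 := fun a ha => h5 w2 vw.symm a ha (mem_C.mp ha.1)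
  have hQN : ∀ q ∈ Q, q ∈ normalizer (A : Set S) := fun q hq =>
    mem_normalizer_of_conj_mem fun a ha => by
      rcases (mem_zpowers_of_sq z2).mp (comm_mem_of_sq hsq hq ha.2.2) with h7 | h7
      · rwa [mul_inv_eq_one.mp h7]
      · rw [mul_inv_eq_iff_eq_mul.mp h7]; exact mul_mem zA ha
  have : Group.IsNilpotent (normalizer (A : Set S)) := (hS.out.to_subgroup _).isNilpotent
  obtain ⟨⟨x, hx⟩, hx1, hx2, hx3⟩ := Fit.exists_central_mod
    (N := A.subgroupOf (normalizer (A : Set S)))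
    (M := (centralizer (A : Set S)).subgroupOf (normalizer (A : Set S))) fun h7 =>
      h (harada hA (by omega) fun x hx => by
        have h8 : x ∈ centralizer (A : Set S) := fun a ha => (hx a ha).symm
        exact h7 (x := ⟨x, centralizer_le_normalizer _ h8⟩) h8)
  have xv : Commute x (i * k) := (hx1 _ vA).symm
  have xw : Commute x (j * l) := (hx1 _ wA).symm
  have h7 : ∀ q ∈ Q, q⁻¹ * (x * q * x⁻¹) ∈ A := fun q hq => by
    have : q⁻¹ * x * q⁻¹⁻¹ * x⁻¹ ∈ A := hx3 ⟨q⁻¹, hQN _ (inv_mem hq)⟩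
    simpa [mul_assoc] using this
  have h8 := swap_aux z2 z1 zc hi ik w2 iw vw.symm v2 (mul_inv_cancel_left i _).symm
    (h4 _ (h7 i iQ))
  have h9 := swap_aux z2 z1 zc hj jl v2 jv vw w2 (mul_inv_cancel_left j _).symm (h6 _ (h7 j jQ))
  have hcz : ∀ g, Commute z g := fun g => (zc g).symm
  have h10 : ¬ Commute (x * i * x⁻¹) (x * j * x⁻¹) := fun h10 =>
    hne i j hij (by simpa [mul_assoc] using h10.map (MulAut.conj x⁻¹))
  rcases h8 with h8 | h8 <;> rcases h9 with h9 | h9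
  · exfalso
    obtain ⟨y, hy, hy1, hy2⟩ : ∃ y ∈ A, Commute (y * x) i ∧ Commute y j := by
      rcases h8 with h8 | h8
      · exact ⟨1, one_mem _, by rw [one_mul]; exact mul_inv_eq_iff_eq_mul.mp h8,
          Commute.one_left _⟩
      · exact ⟨_, wA, swap_fix zc iw h8, jw.symm⟩
    have e1 : y * x * j * (y * x)⁻¹ = j ∨ y * x * j * (y * x)⁻¹ = z * j := by
      rw [show y * x * j * (y * x)⁻¹ = y * (x * j * x⁻¹) * y⁻¹ by group]
      rcases h9 with h9 | h9 <;> rw [h9]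
      · left; rw [hy2.eq, mul_inv_cancel_right]
      · right; rw [((hcz y).symm.mul_right hy2).eq, mul_inv_cancel_right]
    obtain ⟨y', hy', hy1', hy2'⟩ : ∃ y' ∈ A, Commute (y' * x) i ∧ Commute (y' * x) j := by
      rcases e1 with e1 | e1
      · exact ⟨y, hy, hy1, mul_inv_eq_iff_eq_mul.mp e1⟩
      · exact ⟨i * k * y, mul_mem vA hy, by rw [mul_assoc]; exact iv.symm.mul_left hy1,
          by rw [mul_assoc]; exact swap_fix zc jv e1⟩
    have e2 : Commute (y' * x) (i * k) := (show Commute y' _ from mem_C.mp hy'.2.1).mul_left xv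
    have e3 : Commute (y' * x) (j * l) := (show Commute y' _ from mem_C.mp hy'.1).mul_left xw
    refine hx2 ((mul_mem_cancel_left hy').mp ⟨mem_C.mpr e3, mem_C.mpr e2, hC _ hy1' hy2' ?_ ?_⟩)
    · simpa using hy1'.inv_right.mul_right e2
    · simpa using hy2'.inv_right.mul_right e3
  · refine absurd ?_ h10
    rcases h8 with h8 | h8 <;> rcases h9 with h9 | h9 <;> rw [h8, h9]
    exacts [il, (hcz i).symm.mul_right il, (hcz l).mul_left il,
      (hcz _).mul_left ((hcz i).symm.mul_right il)]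
  · refine absurd ?_ h10
    rcases h8 with h8 | h8 <;> rcases h9 with h9 | h9 <;> rw [h8, h9]
    exacts [jk.symm, (hcz k).symm.mul_right jk.symm, (hcz j).mul_left jk.symm,
      (hcz _).mul_left ((hcz k).symm.mul_right jk.symm)]
  · exact ⟨x, h8, h9, xv, xw⟩

theorem sec_of_q8q8 {Q₁ Q₂ : Subgroup S} (e₁ : Q₁ ≃* QuaternionGroup 2)
    (e₂ : Q₂ ≃* QuaternionGroup 2) (hcomm : ∀ a ∈ Q₁, ∀ b ∈ Q₂, Commute a b)
    (hQ : Nat.card (Q₁ ⊔ Q₂ : Subgroup S) = 32)
    (hC : centralizer ((Q₁ ⊔ Q₂ : Subgroup S) : Set S) ≤ Q₁ ⊔ Q₂) : SectionalPRankLE 2 4 S := by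
  by_contra h
  obtain ⟨i, iQ, j, jQ, z1, hj, hij, h1, h2, h3, h4⟩ := exists_q8_gens e₁
  obtain ⟨k, kQ, l, lQ, z1', hl, hkl, h1', h2', h3', h4'⟩ := exists_q8_gens e₂
  have hN : Q₁ ≤ normalizer (Q₂ : Set S) := fun a ha =>
    mem_normalizer_of_conj_mem fun b hb => by rwa [(hcomm a ha b hb).eq, mul_inv_cancel_right]
  have hdec : ∀ q ∈ Q₁ ⊔ Q₂, ∃ a ∈ Q₁, ∃ b ∈ Q₂, a * b = q := fun q hq => by
    rwa [← SetLike.mem_coe, coe_mul_of_left_le_normalizer_right Q₁ Q₂ hN] at hq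
  have hk : k * k = i * i := by
    have e1 : Q₁.relIndex (Q₁ ⊔ Q₂) = 4 := by
      have := card_relIndex Q₁ (Q₁ ⊔ Q₂)
      rw [inf_of_le_left le_sup_left, hQ, Nat.card_congr e₁.toEquiv, Nat.card_eq_fintype_card,
        QuaternionGroup.card] at this
      omega
    have e2 : Q₁.relIndex Q₂ ≤ 4 := e1 ▸ relIndex_le_of_le_right le_sup_right (by omega)
    have e3 := card_relIndex Q₁ Q₂
    rw [Nat.card_congr e₂.toEquiv, Nat.card_eq_fintype_card (α := QuaternionGroup 2),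
      QuaternionGroup.card] at e3
    obtain ⟨w, hw, hw'⟩ := exists_notMem_of_lg (H := ⊥) (K := Q₁ ⊓ Q₂) (by
      rw [lg_bot]
      by_contra e4
      rw [card_eq_lg, show lg (Q₁ ⊓ Q₂) = 0 by omega] at e3
      omega)
    obtain ⟨n, e4, e5⟩ := exists_sq_mem hw'
    rw [mem_bot] at e4 e5
    exact ((h2' _ (pow_mem hw.2 n) e5).resolve_left e4).symm.trans
      ((h2 _ (pow_mem hw.1 n) e5).resolve_left e4)
  rw [hk] at hl hkl h1' h3'
  obtain ⟨z, hi⟩ : ∃ z, i * i = z := ⟨_, rfl⟩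
  rw [hi] at z1 hj hij h1 h2 h3 hk hl hkl h1' h3'
  have z2 : z * z = 1 := (h1 z (hi ▸ mul_mem iQ iQ)).resolve_right fun h => z1 (by simpa using h)
  have hC' : ∀ c, Commute c i → Commute c j → Commute c k → Commute c l → c ∈ Q₁ ⊔ Q₂ :=
    fun c e1 e2 e3 e4 => hC fun q hq => by
      obtain ⟨a, ha, b, hb, rfl⟩ := hdec q hq
      exact ((h4 c e1 e2 a ha).mul_right (h4' c e3 e4 b hb)).symm
  have zc : ∀ g, g * z = z * g := by
    obtain ⟨w, -, -, w1, wc⟩ := exists_central_mem (M := (⊤ : Subgroup S))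
      fun h => z1 (mem_bot.mp (h ▸ mem_top z))
    obtain ⟨a, ha, b, hb, rfl⟩ := hdec w (hC fun q _ => wc q)
    have e1 : ∀ g ∈ Q₁, a * g = g * a := fun g hg => by
      simpa using ((show Commute g _ from wc g).mul_right (hcomm g hg b hb).inv_right).symm.eq
    have e2 : ∀ g ∈ Q₂, b * g = g * b := fun g hg => by
      simpa using ((hcomm a ha g hg).symm.inv_right.mul_right (wc g)).symm.eq
    rcases h3 a ha (e1 i iQ) (e1 j jQ) with rfl | rfl <;>
      rcases h3' b hb (e2 k kQ) (e2 l lQ) with rfl | rfl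
    · exact absurd (mul_one 1) w1
    · simpa using wc
    · simpa using wc
    · exact absurd z2 w1
  have hZ := normal_zpowers_of_central zc
  have hsq : ∀ q ∈ Q₁ ⊔ Q₂, q * q ∈ zpowers z := fun q hq => by
    obtain ⟨a, ha, b, hb, rfl⟩ := hdec q hq
    rw [(hcomm a ha b hb).symm.mul_mul_mul_comm]
    exact mul_mem ((mem_zpowers_of_sq z2).mpr (h1 a ha)) ((mem_zpowers_of_sq z2).mpr (h1' b hb))
  have hlg : lg (Q₁ ⊔ Q₂) = 5 := lg_eq_of_card hQ
  obtain ⟨x, hx1, hx2, hx3, hx4⟩ := exists_swap z2 z1 zc hi hj hk hl hij hkl (hcomm i iQ k kQ)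
    (hcomm i iQ l lQ) (hcomm j jQ k kQ) (hcomm j jQ l lQ) (mem_sup_left iQ) (mem_sup_left jQ)
    (mem_sup_right kQ) (mem_sup_right lQ) hlg hsq hC' h
  obtain ⟨y, hy1, hy2, -, -⟩ := exists_swap (k := l) (l := k * l) z2 z1 zc hi hj hl (by
      calc _ = z * (l * (k * k) * l) := by nth_rw 1 [hkl]; group
        _ = z := by rw [hk, zc, mul_assoc, hl, z2, mul_one]) hij (by
      calc _ = l * k * l := by group
        _ = _ := by rw [hkl, ← mul_assoc, ← mul_assoc, ← mul_assoc, z2, one_mul])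
    (hcomm i iQ l lQ) (hcomm i iQ _ (mul_mem kQ lQ)) (hcomm j jQ l lQ)
    (hcomm j jQ _ (mul_mem kQ lQ)) (mem_sup_left iQ) (mem_sup_left jQ) (mem_sup_right lQ)
    (mem_sup_right (mul_mem kQ lQ)) hlg hsq
    (fun c e1 e2 e3 e4 => hC' c e1 e2 (by simpa using e4.mul_right e3.inv_right) e3) h
  let π := QuotientGroup.mk' (zpowers z)
  have πz : π z = 1 := (QuotientGroup.eq_one_iff z).mpr (mem_zpowers z)
  have hπ : ∀ g a b : S, g * a * g⁻¹ = b ∨ g * a * g⁻¹ = z * b → π g * π a * (π g)⁻¹ = π b := by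
    rintro g a b (h | h) <;> simpa [πz] using congrArg π h
  have e1 := hπ _ _ _ hx1
  have e2 := hπ _ _ _ hx2
  have e3 := hπ _ _ _ hy1
  have e4 := hπ _ _ _ hy2
  have sq : ∀ g, g * g = z → (π g)⁻¹ = π g := fun g hg =>
    inv_eq_of_mul_eq_one_right (by rw [← map_mul, hg, πz])
  have cm : ∀ g a b : S, Commute g (a * b) → Commute a b → a * a = z → b * b = z →
      π g * π a * (π g)⁻¹ = π b → π g * π b * (π g)⁻¹ = π a := fun g a b h1 h2 h3 h4 h5 => by
    calc _ = (π g * π a * (π g)⁻¹)⁻¹ * (π g * (π a * π b) * (π g)⁻¹) := by group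
      _ = _ := by
        rw [h5, ← map_mul π a, (h1.map π).eq, mul_inv_cancel_right, h2.eq, map_mul,
          inv_mul_cancel_left]
  have e5 := cm _ _ _ hx3 (hcomm i iQ k kQ) hi hk e1
  have e6 := cm _ _ _ hx4 (hcomm j jQ l lQ) hj hl e2
  have e7 : π (x * y) * π i * (π (x * y))⁻¹ = π j := by
    rw [← e6, ← e3, map_mul]; group
  have e8 : π (x * y) * π j * (π (x * y))⁻¹ = π i * π j := by
    rw [← e5]; nth_rw 2 [← e6]; rw [conj_mul, ← map_mul π k, ← e4, map_mul]; group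
  have e9 : Commute (π (x * y) ^ 3) (π i) := by
    refine mul_inv_eq_iff_eq_mul.mp ?_
    calc _ = π (x * y) * (π (x * y) * (π (x * y) * π i * (π (x * y))⁻¹) * (π (x * y))⁻¹) *
          (π (x * y))⁻¹ := by rw [pow_three]; group
      _ = π j * (π i * π j) := by rw [e7, e8, ← conj_mul, e7, e8]
      _ = _ := by
        rw [← map_mul, hij, map_mul, πz, one_mul, map_mul, ← mul_assoc, ← map_mul, hj, πz, one_mul]
  obtain ⟨n, hn⟩ := Fit.mem_zpowers_pow_of_coprime (hS.out.to_quotient (zpowers z)) (π (x * y))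
    (u := 3) (by norm_num)
  have e10 := e9.zpow_left n
  simp only at hn
  rw [hn] at e10
  rw [e10.eq, mul_inv_cancel_right] at e7
  have e11 : Commute i j := by
    rcases (mem_zpowers_of_sq z2).mp (QuotientGroup.eq.mp e7) with h | h
    · rw [inv_mul_eq_one.mp h]
    · rw [inv_mul_eq_iff_eq_mul.mp h]; exact (Commute.refl i).mul_right (zc i)
  exact z1 (by simpa [e11.eq] using hij)

end Cfsg.Agent.TwoGrp
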